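import Mathlib
import Cfsg.Prelude
import Cfsg.Agent.Lib.H87.MW9

set_option autoImplicit false
set_option maxHeartbeats 400000

/-! Normal elementary abelian subgroups of order eight in 2-groups. -/

namespace H87.SC1

open Subgroup H87.MW1 H87.MW2 H87.MW3 H87.MW4 H87.MW5 H87.MW7 H87.MW8

variable {G : Type*} [Group G]

theorem cj_conj {N : Subgroup G} [N.Normal] {x : G} (hx : x ∈ N) (g : G) : cj x g ∈ N := conj_mem' hx g

theorem cm_memN {N : Subgroup G} [N.Normal] {x : G} (hx : x ∈ N) (g : G) : cm x g ∈ N := by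
  rw [cm_eq]; exact N.mul_mem (N.inv_mem hx) (cj_conj hx g)

/-- bound for `H` from the normal subgroup `C` with `G/C` of rank two and order ≤ 8 -/
theorem hb_of [Finite G] {C : Subgroup G} [C.Normal] (h8 : C.index ≤ 8)
    (hne : C.index = 8 → ∃ g : G, g * g ∉ C) (hG : IsPGroup 2 G) (H : Subgroup G) :
    Nat.card H ≤ 2 ^ 2 * Nat.card ↥((H ⊓ C) ⊔ Sq H) := by
  have h1 := Subgroup.relIndex_mul_relIndex (⊥ : Subgroup G) (H ⊓ C) H bot_le inf_le_left
  rw [Subgroup.relIndex_bot_left, Subgroup.relIndex_bot_left] at h1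
  have hle : Nat.card ↥(H ⊓ C) ≤ Nat.card ↥((H ⊓ C) ⊔ Sq H) :=
    Nat.le_of_dvd Nat.card_pos (Subgroup.card_dvd_of_le le_sup_left)
  have hd := relIndex_inf_le H C
  by_cases h4 : (H ⊓ C).relIndex H ≤ 4
  · rw [← h1, mul_comm]
    exact Nat.mul_le_mul (by norm_num; exact h4) hle
  have hpos : 0 < C.index := Nat.pos_of_ne_zero Subgroup.index_ne_zero_of_finite
  have hi4 : ¬ C.index ≤ 4 := fun e => h4 ((Nat.le_of_dvd hpos hd).trans e)
  have h8' := idx_eq_eight hG hi4 h8
  rw [h8'] at hd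
  have h8'' : (H ⊓ C).relIndex H = 8 := by
    have hle := Nat.le_of_dvd (by norm_num) hd
    interval_cases h : (H ⊓ C).relIndex H <;> omega
  obtain ⟨h, hh, hh2⟩ : ∃ h ∈ H, h * h ∉ C := by
    by_contra hcon
    push Not at hcon
    obtain ⟨g, hg⟩ := hne h8'
    have htop : H ⊔ C = ⊤ := by
      have e1 : C.relIndex H = C.index := by rw [← Subgroup.inf_relIndex_left, h8'', h8']
      have e2 : C.relIndex (H ⊔ C) = C.relIndex H := by
        rw [sup_comm]; exact Subgroup.relIndex_sup_left _ _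
      have e3 := Subgroup.relIndex_mul_index (le_sup_right : C ≤ H ⊔ C)
      rw [e2, e1] at e3
      have : (H ⊔ C).index = 1 := by
        have : C.index * (H ⊔ C).index = C.index * 1 := by rw [e3, mul_one]
        exact Nat.eq_of_mul_eq_mul_left hpos this
      exact Subgroup.index_eq_one.1 this
    have hgm : g ∈ H ⊔ C := by rw [htop]; trivial
    rw [Subgroup.mem_sup_of_normal_right] at hgm
    obtain ⟨x, hx, y, hy, rfl⟩ := hgm
    apply hg
    have hnn : (x⁻¹ * y * x) * y ∈ C := C.mul_mem (cj_conj hy x) hy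
    have : x * y * (x * y) = (x * x) * ((x⁻¹ * y * x) * y) := by group
    rw [this]
    exact C.mul_mem (hcon x hx) hnn
  have hlt : H ⊓ C < (H ⊓ C) ⊔ Sq H := by
    refine lt_of_le_of_ne le_sup_left ?_
    intro he
    have : h * h ∈ H ⊓ C := by
      rw [he]; exact Subgroup.mem_sup_right (sq_mem hh)
    exact hh2 this.2
  obtain ⟨c, hc⟩ := Subgroup.card_dvd_of_le hlt.le
  have hpos' : 0 < Nat.card ↥((H ⊓ C) ⊔ Sq H) := Nat.card_pos
  have hc2 : 2 ≤ c := by
    rcases c with _ | _ | c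
    · omega
    · exfalso
      exact hlt.ne (Subgroup.eq_of_le_of_card_ge hlt.le (by rw [hc]; omega))
    · omega
  rw [← h1, h8'', hc]
  calc Nat.card ↥(H ⊓ C) * 8 = 2 ^ 2 * (Nat.card ↥(H ⊓ C) * 2) := by ring
    _ ≤ 2 ^ 2 * (Nat.card ↥(H ⊓ C) * c) :=
      Nat.mul_le_mul_left _ (Nat.mul_le_mul_left _ hc2)

/-- normal subgroups of each order inside a normal subgroup -/
theorem exists_normal_eight [Finite G] (hG : IsPGroup 2 G) {A : Subgroup G} (hA : A.Normal)
    (h : 4 < Nat.card A) : ∃ E : Subgroup G, E.Normal ∧ E ≤ A ∧ Nat.card E = 8 ∧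
      ∃ F : Subgroup G, F.Normal ∧ F ≤ E ∧ Nat.card F = 4 ∧
        ∃ Z : Subgroup G, Z.Normal ∧ Z ≤ F ∧ Nat.card Z = 2 := by
  haveI : Fact (Nat.Prime 2) := ⟨Nat.prime_two⟩
  have h1 : (⊥ : Subgroup G) ≠ A := by
    intro e; rw [← e, Subgroup.card_bot] at h; omega
  obtain ⟨Z, hZ, -, hZA, hZc⟩ := H82.DLen.exists_step hG (bot_le : (⊥ : Subgroup G) ≤ A) h1
  rw [Subgroup.card_bot, one_mul] at hZc
  have h2 : Z ≠ A := by intro e; rw [← e] at h; omega
  obtain ⟨F, hF, hZF, hFA, hFc⟩ := H82.DLen.exists_step hG hZA h2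
  rw [hZc] at hFc
  have h3 : F ≠ A := by intro e; rw [← e] at h; omega
  obtain ⟨E, hE, hFE, hEA, hEc⟩ := H82.DLen.exists_step hG hFA h3
  rw [hFc] at hEc
  exact ⟨E, hE, hEA, hEc, F, hF, hFE, hFc, Z, hZ, hZF, hZc⟩

/-- the flag inside a normal `E8` -/
theorem flag [Finite G] (hG : IsPGroup 2 G) {E : Subgroup G} (hE : E.Normal)
    (hEab : ∀ x ∈ E, ∀ y ∈ E, x * y = y * x) (hE2 : ∀ x ∈ E, x * x = 1) (hE8 : Nat.card E = 8) :
    ∃ z e2 e3 : G, z ∈ E ∧ e2 ∈ E ∧ e3 ∈ E ∧ z ≠ 1 ∧ e2 ≠ 1 ∧ e2 ≠ z ∧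
      (∀ g, cj z g = z) ∧ (∀ g, cj e2 g = e2 ∨ cj e2 g = e2 * z) ∧
      (∀ g, cm e3 g = 1 ∨ cm e3 g = z ∨ cm e3 g = e2 ∨ cm e3 g = e2 * z) ∧
      (∀ x ∈ E, (x = 1 ∨ x = z ∨ x = e2 ∨ x = e2 * z) ∨
        (x = e3 ∨ x = z * e3 ∨ x = e2 * e3 ∨ x = e2 * z * e3)) ∧
      e3 ≠ 1 ∧ e3 ≠ z ∧ e3 ≠ e2 ∧ e3 ≠ e2 * z := by
  classical
  obtain ⟨E', hE'n, hE'E, hE'8, F, hF, hFE', hF4, Z, hZ, hZF, hZ2⟩ :=
    exists_normal_eight hG hE (by omega)
  have hEE : E' = E := Subgroup.eq_of_le_of_card_ge hE'E (by omega)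
  subst hEE
  have hFE := hFE'
  haveI := hF
  haveI := hZ
  -- z
  obtain ⟨z, hzZ, hz1⟩ : ∃ z ∈ Z, z ≠ 1 := by
    by_contra hcon
    push Not at hcon
    have : Z = ⊥ := by rw [eq_bot_iff]; intro x hx; exact Subgroup.mem_bot.2 (hcon x hx)
    rw [this, Subgroup.card_bot] at hZ2; omega
  have hZmem : ∀ x ∈ Z, x = 1 ∨ x = z := by
    intro x hx
    by_contra hcon
    push Not at hcon
    have hsub : (({1, z, x} : Finset G) : Set G) ⊆ (Z : Set G) := by
      intro y hy
      simp only [Finset.coe_insert, Finset.coe_singleton, Set.mem_insert_iff,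
        Set.mem_singleton_iff] at hy
      rcases hy with rfl | rfl | rfl
      · exact Z.one_mem
      · exact hzZ
      · exact hx
    have h3 : ({1, z, x} : Finset G).card = 3 := by
      rw [Finset.card_insert_of_notMem, Finset.card_insert_of_notMem, Finset.card_singleton]
      · simpa using Ne.symm hcon.2
      · simp only [Finset.mem_insert, Finset.mem_singleton, not_or]
        exact ⟨Ne.symm hz1, Ne.symm hcon.1⟩
    have h4 := Set.ncard_le_ncard hsub (Set.toFinite _)
    rw [Set.ncard_coe_finset, h3, ← Nat.card_coe_set_eq] at h4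
    have : Nat.card Z = 2 := hZ2
    change 3 ≤ Nat.card Z at h4
    omega
  have hzE : z ∈ E' := hFE (hZF hzZ)
  have hzc : ∀ g, cj z g = z := by
    intro g
    rcases hZmem _ (cj_conj hzZ g) with e | e
    · exfalso; apply hz1
      have : cj (cj z g) g⁻¹ = 1 := by rw [e, cj_one]
      rw [cj_cj, mul_inv_cancel] at this
      simpa [cj] using this
    · exact e
  obtain ⟨e2, he2F, he21, he2z⟩ : ∃ e ∈ F, e ≠ 1 ∧ e ≠ z := by
    by_contra hcon
    push Not at hcon
    have hsub : (F : Set G) ⊆ (({1, z} : Finset G) : Set G) := by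
      intro u hu
      by_cases hu1 : u = 1
      · simp [hu1]
      · simp [hcon u hu hu1]
    have := Set.ncard_le_ncard hsub (Set.toFinite _)
    rw [Set.ncard_coe_finset, ← Nat.card_coe_set_eq] at this
    change Nat.card F ≤ _ at this
    rw [hF4] at this
    have h2 := Finset.card_le_two (a := (1 : G)) (b := z)
    omega
  have he2E : e2 ∈ E' := hFE he2F
  have hzz := hE2 z hzE
  have h22 := hE2 e2 he2E
  have e2z1 : e2 * z ≠ 1 := fun e => he2z (by
    calc e2 = e2 * (z * z) := by rw [hzz, mul_one]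
      _ = z := by rw [← mul_assoc, e, one_mul])
  have hFmem : ∀ x ∈ F, x = 1 ∨ x = z ∨ x = e2 ∨ x = e2 * z := by
    have hc : ({1, z, e2, e2 * z} : Finset G).card = 4 := by
      rw [Finset.card_insert_of_notMem, Finset.card_insert_of_notMem,
        Finset.card_insert_of_notMem, Finset.card_singleton]
      · simpa using hz1
      · simp only [Finset.mem_insert, Finset.mem_singleton, not_or]
        exact ⟨Ne.symm he2z, fun e => he21 (by
          have : e2 * z = 1 * z := by rw [← e, one_mul]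
          exact mul_right_cancel this)⟩
      · simp only [Finset.mem_insert, Finset.mem_singleton, not_or]
        exact ⟨Ne.symm hz1, Ne.symm he21, Ne.symm e2z1⟩
    have hsub : (({1, z, e2, e2 * z} : Finset G) : Set G) ⊆ (F : Set G) := by
      intro y hy
      simp only [Finset.coe_insert, Finset.coe_singleton, Set.mem_insert_iff,
        Set.mem_singleton_iff] at hy
      rcases hy with rfl | rfl | rfl | rfl
      · exact F.one_mem
      · exact hZF hzZ
      · exact he2F
      · exact F.mul_mem he2F (hZF hzZ)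
    have heq : (({1, z, e2, e2 * z} : Finset G) : Set G) = (F : Set G) := by
      refine Set.eq_of_subset_of_ncard_le hsub ?_ (Set.toFinite _)
      rw [Set.ncard_coe_finset, hc, ← Nat.card_coe_set_eq]
      exact hF4.le
    intro x hx
    have : x ∈ (F : Set G) := hx
    rw [← heq] at this
    simpa using this
  obtain ⟨e3, he3E, he3F⟩ : ∃ e ∈ E', e ∉ F := by
    by_contra hcon
    push Not at hcon
    have := Nat.le_of_dvd Nat.card_pos (Subgroup.card_dvd_of_le (show E' ≤ F from hcon))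
    omega
  have hEF : ∀ x ∈ E', x ∉ F → x * e3 ∈ F := by
    intro x hx hxF
    refine two_step hFE (by omega) hx he3E hxF he3F
  refine ⟨z, e2, e3, hzE, he2E, he3E, hz1, he21, he2z, hzc, ?_, ?_, ?_, ?_, ?_, ?_, ?_⟩
  · intro g
    rcases hFmem _ (cj_conj he2F g) with e | e | e | e
    · exfalso; apply he21
      have : cj (cj e2 g) g⁻¹ = 1 := by rw [e, cj_one]
      rw [cj_cj, mul_inv_cancel] at this
      simpa [cj] using this
    · exfalso; apply he2z
      have : cj (cj e2 g) g⁻¹ = z := by rw [e, hzc]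
      rw [cj_cj, mul_inv_cancel] at this
      simpa [cj] using this
    · exact Or.inl e
    · exact Or.inr e
  · intro g
    have h1 : cj e3 g ∉ F := by
      intro hcon
      apply he3F
      have := cj_conj hcon g⁻¹
      rw [cj_cj, mul_inv_cancel] at this
      simpa [cj] using this
    have h2 : e3⁻¹ * cj e3 g ∈ F := by
      refine two_step hFE (by omega) (E'.inv_mem he3E) (cj_conj he3E g) ?_ h1
      intro hcon; exact he3F (by simpa using F.inv_mem hcon)
    rw [cm_eq]
    exact hFmem _ h2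
  · intro x hx
    by_cases hxF : x ∈ F
    · exact Or.inl (hFmem x hxF)
    · right
      have h33 := hE2 e3 he3E
      have hx3 : x = (x * e3) * e3 := by rw [mul_assoc, h33, mul_one]
      rcases hFmem _ (hEF x hx hxF) with e | e | e | e
      · left; rw [hx3, e, one_mul]
      · right; left; rw [hx3, e]
      · right; right; left; rw [hx3, e]
      · right; right; right; rw [hx3, e]
  · rintro rfl; exact he3F F.one_mem
  · rintro rfl; exact he3F (hZF hzZ)
  · rintro rfl; exact he3F he2F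
  · rintro rfl; exact he3F (F.mul_mem he2F (hZF hzZ))

/-- `G / C_G(E)` -/
theorem FL [Finite G] (hG : IsPGroup 2 G) {E : Subgroup G} (hE : E.Normal)
    (hEab : ∀ x ∈ E, ∀ y ∈ E, x * y = y * x) (hE2 : ∀ x ∈ E, x * x = 1) (hE8 : Nat.card E = 8) :
    (centralizer (E : Set G)).index ≤ 8 ∧
    ((centralizer (E : Set G)).index = 8 → ∃ g : G, g * g ∉ centralizer (E : Set G)) := by
  classical
  obtain ⟨z, e2, e3, hzE, he2E, he3E, hz1, he21, he2z, hzc, h2, h3, hall, -, -, -, -⟩ :=
    flag hG hE hEab hE2 hE8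
  set C := centralizer (E : Set G) with hC
  haveI : C.Normal := by haveI := hE; rw [hC]; infer_instance
  have fixz : ∀ g, z * g = g * z := by
    intro g
    have := hzc g
    unfold cj at this
    calc z * g = g * (g⁻¹ * z * g) := by group
      _ = g * z := by rw [this]
  have memC : ∀ g, cj e2 g = e2 → cj e3 g = e3 → g ∈ C := by
    intro g h1 h2
    refine Subgroup.mem_centralizer_iff.2 fun x hx => ?_
    have key : ∀ u : G, cj u g = u → u * g = g * u := by
      intro u hu
      unfold cj at hu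
      calc u * g = g * (g⁻¹ * u * g) := by group
        _ = g * u := by rw [hu]
    refine key x ?_
    rcases hall x hx with (e | e | e | e) | (e | e | e | e) <;> rw [e] <;>
      simp only [cj_one, cj_mul, hzc, h1, h2]
  have hfib : ∀ x ∈ (⊤ : Subgroup G), ∀ y ∈ (⊤ : Subgroup G),
      ((cj e2 x⁻¹, cm e3 x⁻¹) : G × G) = (cj e2 y⁻¹, cm e3 y⁻¹) → x⁻¹ * y ∈ C := by
    intro x _ y _ hxy
    rw [Prod.mk.injEq] at hxy
    obtain ⟨p1, p2⟩ := hxy
    have p3 : cj e3 x⁻¹ = cj e3 y⁻¹ := by rw [cj_eq, cj_eq e3 y⁻¹, p2]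
    refine memC _ ?_ ?_
    · rw [← cj_cj, p1, cj_cj]; simp [cj]
    · rw [← cj_cj, p3, cj_cj]; simp [cj]
  have hle := card_le_fiber (H := (⊤ : Subgroup G)) (K := C)
    (fun g => ((cj e2 g⁻¹, cm e3 g⁻¹) : G × G))
    (({e2, e2 * z} : Finset G) ×ˢ ({1, z, e2, e2 * z} : Finset G)) (by
      intro g _
      rw [Finset.mem_product]
      constructor
      · rcases h2 g⁻¹ with e | e <;> simp [e]
      · rcases h3 g⁻¹ with e | e | e | e <;> simp [e]) hfib
  rw [Nat.card_congr Subgroup.topEquiv.toEquiv, Finset.card_product] at hle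
  have hc2 := Finset.card_le_two (a := e2) (b := e2 * z)
  have hc4 := Finset.card_le_four (a := (1 : G)) (b := z) (c := e2) (d := e2 * z)
  refine ⟨idx_le (hle.trans (Nat.mul_le_mul_right _ (Nat.mul_le_mul hc2 hc4))), ?_⟩
  intro hidx
  by_contra hcon
  push Not at hcon
  -- `G/C` abelian
  have hcomm := fun x y => comm_in hcon x y
  -- there is g with e2^g = e2 z
  have hG8 : Nat.card G = 8 * Nat.card C := by
    rw [← Subgroup.card_mul_index C, hidx, mul_comm]
  have ex1 : ∃ g, cj e2 g ≠ e2 := by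
    by_contra hc
    push Not at hc
    have := card_le_fiber (H := (⊤ : Subgroup G)) (K := C)
      (fun g => ((cj e2 g⁻¹, cm e3 g⁻¹) : G × G))
      (({e2} : Finset G) ×ˢ ({1, z, e2, e2 * z} : Finset G)) (by
        intro g _
        rw [Finset.mem_product]
        constructor
        · simp [hc]
        · rcases h3 g⁻¹ with e | e | e | e <;> simp [e]) hfib
    rw [Nat.card_congr Subgroup.topEquiv.toEquiv, Finset.card_product, Finset.card_singleton, hG8] at this
    have h5 := Nat.le_of_mul_le_mul_right this Nat.card_pos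
    omega
  have ex2 : ∃ g, cm e3 g ≠ 1 ∧ cm e3 g ≠ z := by
    by_contra hc
    push Not at hc
    have := card_le_fiber (H := (⊤ : Subgroup G)) (K := C)
      (fun g => ((cj e2 g⁻¹, cm e3 g⁻¹) : G × G))
      (({e2, e2 * z} : Finset G) ×ˢ ({1, z} : Finset G)) (by
        intro g _
        rw [Finset.mem_product]
        constructor
        · rcases h2 g⁻¹ with e | e <;> simp [e]
        · by_cases h1 : cm e3 g⁻¹ = 1
          · simp [h1]
          · simp [hc _ h1]) hfib
    rw [Nat.card_congr Subgroup.topEquiv.toEquiv, Finset.card_product, hG8] at this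
    have h5 := Nat.le_of_mul_le_mul_right this Nat.card_pos
    have hc2' := Finset.card_le_two (a := (1 : G)) (b := z)
    have := h5.trans (Nat.mul_le_mul hc2 hc2')
    omega
  obtain ⟨g, hg⟩ := ex1
  obtain ⟨k, hk1, hk2⟩ := ex2
  have hg2 := (h2 g).resolve_left hg
  -- e3^k = e3 * u with u ∈ {e2, e2 z}
  obtain ⟨u, huE, hku, hug⟩ : ∃ u ∈ E, cm e3 k = u ∧ cj u g = u * z := by
    rcases h3 k with e | e | e | e
    · exact absurd e hk1
    · exact absurd e hk2
    · exact ⟨e2, he2E, e, hg2⟩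
    · refine ⟨e2 * z, E.mul_mem he2E hzE, e, ?_⟩
      rw [cj_mul, hzc, hg2]
  have hzz := hE2 z hzE
  -- e3^g = e3 * m, m ∈ {1,z,e2,e2z}; m^k = m or m z ; then contradiction
  have hgk := hcomm g k
  have e1 : cj e3 (g * k) = cj e3 (k * g) := by
    have : g * k = k * g * cm g k := by unfold cm; group
    rw [this, ← cj_cj]
    refine (cj_of_comm ?_)
    exact Subgroup.mem_centralizer_iff.1 hgk _ (cj_conj he3E _)
  rw [← cj_cj, ← cj_cj, cj_eq e3 g, cj_eq e3 k, hku, cj_mul, cj_mul, hug, cj_eq e3 k, cj_eq e3 g,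
    hku] at e1
  -- e3 * u * cj m k = e3 * m * (u * z)
  set m := cm e3 g with hm
  have hmE : m ∈ E := cm_memN he3E g
  have e2' : cj m k = m * z := by
    have q1 : u * cj m k = m * (u * z) := by
      have : e3 * (u * cj m k) = e3 * (m * (u * z)) := by
        simpa [mul_assoc] using e1
      exact mul_left_cancel this
    have q2 : m * (u * z) = u * (m * z) := by
      rw [← mul_assoc, hEab m hmE u huE, mul_assoc]
    rw [q2] at q1
    exact mul_left_cancel q1
  -- so m ∈ {e2, e2 z} and e2^k = e2 z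
  have hk3 : cj e2 k = e2 * z := by
    rcases h3 g with e | e | e | e
    · rw [← hm] at e; rw [e, cj_one, one_mul] at e2'; exact absurd e2'.symm hz1
    · rw [← hm] at e; rw [e, hzc, hzz] at e2'; exact absurd e2' hz1
    · rw [← hm] at e; rw [e] at e2'; exact e2'
    · rw [← hm] at e; rw [e, cj_mul, hzc] at e2'
      exact mul_right_cancel e2'
  -- now square of k : e3^(k k) = e3 u (u z) = e3 z
  have hkk : cj e3 (k * k) = e3 := by
    refine cj_of_comm ?_
    exact Subgroup.mem_centralizer_iff.1 (hcon k) _ he3E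
  rw [← cj_cj, cj_eq e3 k, hku, cj_mul, cj_eq e3 k, hku] at hkk
  have huk : cj u k = u * z := by
    rcases h3 k with e | e | e | e
    · exact absurd e hk1
    · exact absurd e hk2
    · rw [← hku, e, hk3]
    · rw [← hku, e, cj_mul, hzc, hk3]
  rw [huk] at hkk
  apply hz1
  have : e3 * (u * u * z) = e3 * 1 := by rw [mul_one]; simpa [mul_assoc] using hkk
  have := mul_left_cancel this
  rwa [hE2 u huE, one_mul] at this

end H87.SC1
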