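import Mathlib
import Cfsg.Prelude
import Cfsg.Agent.Lib.H87.Hr.SC1
import Cfsg.Agent.Lib.H60.MaxClassTwo
import Cfsg.Agent.Lib.H3.MaxClass2

set_option autoImplicit false
set_option maxHeartbeats 400000

/-! An involution with centraliser of order eight and noncyclic centre. -/

namespace H87.SC2

open Subgroup H87.MW1 H87.MW2
open scoped commutatorElement

theorem camina {X : Type*} [Group X] [Finite X] (hX : IsPGroup 2 X) (B : Subgroup X)
    (hB : B ≤ center X) (hB4 : Nat.card B = 4) {t : X} (htB : t ∉ B)
    (hC : ∀ x, x * t = t * x → x ∈ B ∨ t * x ∈ B) :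
    Nat.card X = 8 * Nat.card (commutator X) ∧ (∀ d ∈ commutator X, ∃ x : X, x⁻¹ * t * x = t * d) := by
  classical
  haveI : Fact (Nat.Prime 2) := ⟨Nat.prime_two⟩
  set Z := centralizer ({t} : Set X) with hZ
  have hZ8 : Nat.card Z ≤ 8 := by
    have := MW5.card_le_two_mul (H := Z) (K := B) (y := t) (by
      intro x hx
      rw [hZ, mem_centralizer_singleton_iff] at hx
      exact hC x hx)
    omega
  have h1 := H60.MaxClassTwo.index_centralizer_le t
  have h2 := Z.card_mul_index
  have h3 := (commutator X).card_mul_index
  have hposC : 0 < Nat.card (commutator X) := Nat.card_pos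
  have hle8 : Nat.card X ≤ 8 * Nat.card (commutator X) := by
    calc Nat.card X = Nat.card Z * Z.index := h2.symm
      _ ≤ 8 * Nat.card (commutator X) := Nat.mul_le_mul hZ8 h1
  -- lower bound
  have hidx8 : (commutator X).index = 8 := by
    have hle : (commutator X).index ≤ 8 := by
      rw [← h3, mul_comm] at hle8
      exact Nat.le_of_mul_le_mul_right hle8 hposC
    obtain ⟨m, hm⟩ := hX.exists_card_eq
    obtain ⟨k, _, hk⟩ := (Nat.dvd_prime_pow Nat.prime_two).mp (hm ▸ (commutator X).index_dvd_card)
    have hm3 : 3 ≤ m := by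
      by_contra hcon
      have h4 : Nat.card X ≤ 4 := by
        rw [hm]
        calc 2 ^ m ≤ 2 ^ 2 := Nat.pow_le_pow_right (by norm_num) (by omega)
          _ = 4 := by norm_num
      have : B = ⊤ := Subgroup.eq_top_of_le_card B (by omega)
      exact htB (by rw [this]; trivial)
    have hk3 : ¬ k ≤ 2 := by
      intro hk2
      rcases Nat.lt_or_ge k 2 with hk2' | hk2'
      · have hcyc : IsCyclic (X ⧸ commutator X) := by
          have hcard : Nat.card (X ⧸ commutator X) = 2 ^ k := hk
          interval_cases k
          · have : Subsingleton (X ⧸ commutator X) :=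
              (Nat.card_eq_one_iff_unique.mp (by simpa using hcard)).1
            infer_instance
          · exact isCyclic_of_prime_card (p := 2) (by simpa using hcard)
        have hbot := H14.MaxClass.commutator_eq_bot_of_isCyclic_quotient hX hcyc
        rw [hbot, index_bot, hm] at hk
        have := Nat.pow_right_injective (le_refl 2) hk
        omega
      · have hk2e : k = 2 := by omega
        rw [hk2e] at hk
        have hcl := H3.MaxClass2.quotient_center hm3 hm (by rw [hk]; norm_num)
        obtain ⟨e⟩ := hcl
        have hq : Nat.card (X ⧸ center X) = 2 * 2 ^ (m - 2) := by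
          rw [Nat.card_congr e.toEquiv, Nat.card_eq_fintype_card, DihedralGroup.card]
        have h5 := (center X).card_mul_index
        rw [Subgroup.index, hq, hm] at h5
        have h6 : 2 * 2 ^ (m - 2) * 2 = 2 ^ m := by
          have : m = (m - 2) + 2 := by omega
          conv_rhs => rw [this]
          rw [pow_add]; ring
        rw [← h6, mul_comm] at h5
        have h7 : Nat.card (center X) = 2 :=
          Nat.eq_of_mul_eq_mul_left (by positivity) h5
        have h8 := Nat.le_of_dvd Nat.card_pos (Subgroup.card_dvd_of_le hB)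
        omega
    have hk4 : k ≤ 3 := by
      by_contra hcon
      have : 2 ^ 4 ≤ 2 ^ k := Nat.pow_le_pow_right (by norm_num) (by omega)
      omega
    have : k = 3 := by omega
    rw [hk, this]; norm_num
  have hcX : Nat.card X = 8 * Nat.card (commutator X) := by rw [← h3, hidx8, mul_comm]
  refine ⟨hcX, ?_⟩
  -- the map `q ↦ [x, t]` from cosets is bijective onto the commutator subgroup
  have hidx : Nat.card (commutator X) ≤ Z.index := by
    have : Nat.card Z * Z.index = 8 * Nat.card (commutator X) := by rw [h2, hcX]
    by_contra hcon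
    push Not at hcon
    have h9 : Nat.card Z * Z.index ≤ 8 * Z.index := Nat.mul_le_mul_right _ hZ8
    omega
  let f : X ⧸ Z → commutator X := fun q => ⟨t⁻¹ * ((q.out)⁻¹⁻¹ * t * (q.out)⁻¹), by
    have : t⁻¹ * ((q.out)⁻¹⁻¹ * t * (q.out)⁻¹) = ⁅t⁻¹, q.out⁆ := by
      rw [commutatorElement_def]; group
    rw [this]
    exact commutator_mem_commutator (mem_top _) (mem_top _)⟩
  have hf : Function.Injective f := by
    intro p q hpq
    have h10 := congrArg Subtype.val hpq
    simp only [f] at h10
    have h11 := mul_left_cancel h10
    rw [← QuotientGroup.out_eq' p, ← QuotientGroup.out_eq' q]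
    rw [QuotientGroup.eq]
    show _ ∈ centralizer ({t} : Set X)
    rw [mem_centralizer_singleton_iff]
    rw [inv_inv, inv_inv] at h11
    calc (Quotient.out p)⁻¹ * Quotient.out q * t
        = (Quotient.out p)⁻¹ * (Quotient.out q * t * (Quotient.out q)⁻¹) * Quotient.out q := by group
      _ = (Quotient.out p)⁻¹ * (Quotient.out p * t * (Quotient.out p)⁻¹) * Quotient.out q := by rw [h11]
      _ = t * ((Quotient.out p)⁻¹ * Quotient.out q) := by group
  have hsurj : Function.Surjective f := by
    haveI : Finite (X ⧸ Z) := inferInstance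
    have hbij := (Nat.bijective_iff_injective_and_card f).2 ⟨hf, le_antisymm
      (Nat.card_le_card_of_injective f hf) hidx⟩
    exact hbij.2
  intro d hd
  obtain ⟨q, hq⟩ := hsurj ⟨d, hd⟩
  refine ⟨(q.out)⁻¹, ?_⟩
  have h12 := congrArg Subtype.val hq
  simp only [f] at h12
  rw [← h12]; group

end H87.SC2
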