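import Mathlib
import Cfsg.Prelude
import Cfsg.Agent.Lib.H87.Hr.SC2

set_option autoImplicit false
set_option maxHeartbeats 400000

/-! The structure of `T = C_G(B)`, `C_T(t) = B<t>`. -/

namespace H87.SC3

open Subgroup H87.MW1 H87.MW2 H87.MW3 H87.MW4 H87.MW5 H87.MW7 H87.MW8 H87.SC1 H87.SC2
open scoped commutatorElement

variable {G : Type*} [Group G]

structure Ta (B : Subgroup G) (t : G) : Prop where
  p : ∀ x : G, ∃ n, x ^ (2 ^ n) = 1
  B4 : Nat.card B = 4
  B2 : ∀ b ∈ B, b * b = 1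
  tt : t * t = 1
  tB : t ∉ B
  tc : ∀ b ∈ B, b * t = t * b
  cent : ∀ x : G, (∀ b ∈ B, b * x = x * b) → x * t = t * x → x ∈ B ∨ t * x ∈ B

variable {B : Subgroup G} {t : G}

abbrev Tt (B : Subgroup G) : Subgroup G := centralizer (B : Set G)
abbrev Dd (B : Subgroup G) : Subgroup G := ⁅Tt B, Tt B⁆

namespace Ta

theorem Bab (h : Ta B t) : ∀ x ∈ B, ∀ y ∈ B, x * y = y * x := by
  intro x hx y hy
  have h1 := h.B2 _ (B.mul_mem hx hy)
  have h2 := h.B2 x hx
  have h3 := h.B2 y hy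
  calc x * y = x * (x * y * (x * y)) * y := by rw [h1]; group
    _ = (x * x) * (y * x) * (y * y) := by group
    _ = y * x := by rw [h2, h3]; group

theorem BT (h : Ta B t) : B ≤ Tt B := fun x hx => mem_centralizer_iff.2 fun y hy => h.Bab y hy x hx

theorem tT (h : Ta B t) : t ∈ Tt B := mem_centralizer_iff.2 fun b hb => h.tc b hb

theorem DT (_h : Ta B t) : Dd B ≤ Tt B := commutator_le_self _

theorem pg (h : Ta B t) : IsPGroup 2 G := fun x => h.p x

theorem comm_mem_D (_h : Ta B t) {x y : G} (hx : x ∈ Tt B) (hy : y ∈ Tt B) : cm x y ∈ Dd B := by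
  have : cm x y = ⁅x⁻¹, y⁻¹⁆ := by rw [commutatorElement_def]; unfold cm; group
  rw [this]; exact commutator_mem_commutator ((Tt B).inv_mem hx) ((Tt B).inv_mem hy)

theorem D_conj (_h : Ta B t) {x y : G} (hx : x ∈ Dd B) (hy : y ∈ normalizer (Tt B : Set G)) :
    cj x y ∈ Dd B := by
  have hle : (Dd B).map (MulAut.conj y⁻¹).toMonoidHom = Dd B := by
    rw [Dd, map_commutator]
    have : (Tt B).map (MulAut.conj y⁻¹).toMonoidHom = Tt B := by
      ext u
      constructor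
      · rintro ⟨w, hw, rfl⟩
        have := (mem_normalizer_iff.1 ((normalizer (Tt B : Set G)).inv_mem hy) w).1 hw
        simpa [MulAut.conj_apply] using this
      · intro hu
        refine ⟨y * u * y⁻¹, (mem_normalizer_iff.1 hy u).1 hu, ?_⟩
        simp [MulAut.conj_apply, mul_assoc]
    rw [this]
  rw [← hle]
  exact ⟨x, hx, by simp [cj, MulAut.conj_apply]⟩

theorem D_conjT (h : Ta B t) {x y : G} (hx : x ∈ Dd B) (hy : y ∈ Tt B) : cj x y ∈ Dd B :=
  h.D_conj hx (le_normalizer hy)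

theorem base [Finite G] (h : Ta B t) : Nat.card (Tt B) = 8 * Nat.card (Dd B) ∧
    (∀ d ∈ Dd B, ∃ x ∈ Tt B, x⁻¹ * t * x = t * d) := by
  have hpT : IsPGroup 2 (Tt B) := h.pg.to_subgroup _
  have hc := camina hpT (B.subgroupOf (Tt B)) (by
      intro x hx
      rw [mem_subgroupOf] at hx
      rw [mem_center_iff]
      intro g
      exact Subtype.ext ((mem_centralizer_iff.1 g.2 x hx).symm)) (by
      rw [Nat.card_congr (Subgroup.subgroupOfEquivOfLe h.BT).toEquiv]; exact h.B4)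
    (t := ⟨t, h.tT⟩) (by rw [mem_subgroupOf]; exact h.tB) (by
      intro x hx
      rw [mem_subgroupOf, mem_subgroupOf]
      exact h.cent x (fun b hb => mem_centralizer_iff.1 x.2 b hb) (congrArg Subtype.val hx))
  have hmap : (commutator (Tt B)).map (Tt B).subtype = Dd B := Subgroup.map_subtype_commutator _
  have hcD : Nat.card (commutator (Tt B)) = Nat.card (Dd B) := by
    rw [← hmap]
    exact Nat.card_congr ((commutator (Tt B)).equivMapOfInjective _ (Tt B).subtype_injective).toEquiv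
  refine ⟨by rw [← hcD]; exact hc.1, ?_⟩
  intro d hd
  rw [← hmap] at hd
  obtain ⟨d', hd', rfl⟩ := hd
  obtain ⟨x, hx⟩ := hc.2 d' hd'
  exact ⟨x, x.2, congrArg Subtype.val hx⟩

variable [Finite G]

theorem inv (h : Ta B t) {d : G} (hd : d ∈ Dd B) : cj d t = d⁻¹ := by
  obtain ⟨x, hx, e⟩ := h.base.2 d hd
  have h1 : (t * d) * (t * d) = 1 := by
    rw [← e]
    calc x⁻¹ * t * x * (x⁻¹ * t * x) = x⁻¹ * (t * t) * x := by group
      _ = 1 := by rw [h.tt]; group
  have h2 : t⁻¹ = t := inv_eq_of_mul_eq_one_left h.tt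
  unfold cj
  rw [h2]
  exact eq_inv_of_mul_eq_one_left (by rw [← h1]; group)

theorem Dab (h : Ta B t) : ∀ x ∈ Dd B, ∀ y ∈ Dd B, x * y = y * x := by
  intro x hx y hy
  have h1 := h.inv ((Dd B).mul_mem hx hy)
  rw [cj_mul, h.inv hx, h.inv hy, ← mul_inv_rev] at h1
  have := inv_injective h1
  exact this.symm

theorem tD (h : Ta B t) {d : G} (hd : d ∈ Dd B) : t * d ∉ B := by
  intro hb
  obtain ⟨x, hx, e⟩ := h.base.2 d hd
  rw [← e] at hb
  have h1 := mem_centralizer_iff.1 hx _ hb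
  have h2 : t = x⁻¹ * t * x := by
    have : x * (x⁻¹ * t * x) * x⁻¹ = x⁻¹ * t * x := by rw [← h1]; group
    calc t = x * (x⁻¹ * t * x) * x⁻¹ := by group
      _ = _ := this
  rw [← h2] at hb
  exact h.tB hb

theorem tnD (h : Ta B t) : t ∉ Dd B := fun e => h.tD e (by rw [h.tt]; exact B.one_mem)

theorem D1 (h : Ta B t) {d : G} (hd : d ∈ Dd B) (hdd : d * d = 1) : d ∈ B := by
  have h1 := h.inv hd
  have h2 : d⁻¹ = d := inv_eq_of_mul_eq_one_left hdd
  rw [h2] at h1
  have h3 : d * t = t * d := by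
    unfold cj at h1
    calc d * t = t * (t⁻¹ * d * t) := by group
      _ = t * d := by rw [h1]
  rcases h.cent d (fun b hb => mem_centralizer_iff.1 (h.DT hd) b hb) h3 with e | e
  · exact e
  · exact absurd e (h.tD hd)

theorem DZ2 (h : Ta B t) : Z2 (Dd B) := ⟨fun x _ => h.p x, fun x hx _ y hy => h.Dab x hx y hy⟩

theorem ranks (h : Ta B t) {K : Subgroup G} (hZ : Z2 K) (hK : ∀ x ∈ K, x * x = 1 → x ∈ B) :
    Nat.card K ≤ 4 * Nat.card (Sq K) := by
  refine (card_le_of_Om hZ).trans (Nat.mul_le_mul_right _ ?_)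
  rw [← h.B4]
  refine Nat.card_le_card_of_injective (fun x : OmS K 1 => (⟨x, hK x x.2.1 (by
    have := x.2.2; rwa [pow_one, pow_two] at this)⟩ : B)) ?_
  intro x y hxy
  exact Subtype.ext (congrArg (fun q : B => (q : G)) hxy)

theorem RKD (h : Ta B t) : RK 2 (Dd B) := fun K hK =>
  h.ranks (h.DZ2.sub hK) (fun x hx e => h.D1 (hK hx) e)

/-- the elements of `D` are the `[x,t]` -/
theorem exists_v (h : Ta B t) {d : G} (hd : d ∈ Dd B) : ∃ x ∈ Tt B, cm x t = d := by
  obtain ⟨x, hx, e⟩ := h.base.2 d⁻¹ ((Dd B).inv_mem hd)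
  refine ⟨x, hx, ?_⟩
  have : cm x t = (t⁻¹ * (x⁻¹ * t * x))⁻¹ := by unfold cm; group
  rw [this, e]; group

/-- squares in `Sq D` -/
theorem sqD (h : Ta B t) {s : G} (hs : s ∈ Sq (Dd B)) : ∃ d ∈ Dd B, s = d * d := by
  unfold Sq at hs
  induction hs using Subgroup.closure_induction with
  | mem x hx => exact hx
  | one => exact ⟨1, one_mem _, by simp⟩
  | mul x y _ _ hx hy =>
    obtain ⟨d, hd, rfl⟩ := hx
    obtain ⟨e, he, rfl⟩ := hy
    refine ⟨d * e, (Dd B).mul_mem hd he, ?_⟩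
    calc d * d * (e * e) = d * (d * e) * e := by group
      _ = d * (e * d) * e := by rw [h.Dab d hd e he]
      _ = _ := by group
  | inv x _ hx =>
    obtain ⟨d, hd, rfl⟩ := hx
    exact ⟨d⁻¹, (Dd B).inv_mem hd, by group⟩

theorem S_conj (h : Ta B t) {s y : G} (hs : s ∈ Sq (Dd B)) (hy : y ∈ normalizer (Tt B : Set G)) :
    cj s y ∈ Sq (Dd B) := by
  obtain ⟨d, hd, rfl⟩ := h.sqD hs
  rw [cj_mul]; exact sq_mem (h.D_conj hd hy)

/-- (4) -/
theorem rel4 (h : Ta B t) {x y : G} (hx : x ∈ Tt B) (hy : y ∈ Tt B) :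
    cm (cm x t) y = cm (cm y t) x * ((cm x y)⁻¹ * (cm x y)⁻¹) := by
  have hvx := h.comm_mem_D hx h.tT
  have hvy := h.comm_mem_D hy h.tT
  have hw := h.comm_mem_D hx hy
  have hwt : cm (cm x y) t = (cm x y)⁻¹ * (cm x y)⁻¹ := by rw [cm_eq, h.inv hw]
  have e1 : cm (x * y) t = cj (cm x t) y * cm y t := by unfold cm cj; group
  have e2 : cm (x * y) t = cj (cj (cm y t) x * cm x t) (cm x y) * cm (cm x y) t := by
    unfold cm cj; group
  have hin : cj (cm y t) x * cm x t ∈ Dd B := (Dd B).mul_mem (h.D_conjT hvy hx) hvx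
  rw [cj_of_comm (h.Dab _ hin _ hw), hwt] at e2
  rw [e2] at e1
  rw [cj_eq, cj_eq (cm x t)] at e1
  -- vy * cm vy x * vx * w⁻² = vx * cm vx y * vy
  have m1 : cm (cm y t) x ∈ Dd B := by
    rw [cm_eq]; exact (Dd B).mul_mem ((Dd B).inv_mem hvy) (h.D_conjT hvy hx)
  have m2 : cm (cm x t) y ∈ Dd B := by
    rw [cm_eq]; exact (Dd B).mul_mem ((Dd B).inv_mem hvx) (h.D_conjT hvx hy)
  set w2 := (cm x y)⁻¹ * (cm x y)⁻¹ with hw2
  set vx := cm x t
  set vy := cm y t
  have c1 : cm vx y * vy = vy * cm vx y := h.Dab _ m2 _ hvy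
  have c2 : cm vy x * vx = vx * cm vy x := h.Dab _ m1 _ hvx
  have c3 : vy * vx = vx * vy := h.Dab _ hvy _ hvx
  have e3 : vx * vy * (cm vy x * w2) = vx * vy * cm vx y := by
    calc vx * vy * (cm vy x * w2) = vy * vx * (cm vy x * w2) := by rw [c3]
      _ = vy * (vx * cm vy x) * w2 := by group
      _ = vy * (cm vy x * vx) * w2 := by rw [c2]
      _ = vy * cm vy x * vx * w2 := by group
      _ = vx * cm vx y * vy := e1
      _ = vx * (cm vx y * vy) := by group
      _ = vx * (vy * cm vx y) := by rw [c1]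
      _ = _ := by group
  exact (mul_left_cancel e3).symm

/-- (1) -/
theorem rel1 (h : Ta B t) {x : G} (hxx : x * x ∈ Dd B) :
    cj (cm x t) x * cm x t = (x * x)⁻¹ * (x * x)⁻¹ := by
  rw [← sq_cm, cm_eq, h.inv hxx]

end Ta

theorem four_elts {Q : Type*} [Group Q] [Finite Q] (h2 : ∀ x : Q, x * x = 1) (h4 : Nat.card Q ≤ 4)
    {p q : Q} (hp : p ≠ 1) (hq : q ≠ 1) (hpq : p ≠ q) (u : Q) : u = 1 ∨ u = p ∨ u = q ∨ u = p * q := by
  classical
  by_contra hcon
  push Not at hcon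
  obtain ⟨u1, u2, u3, u4⟩ := hcon
  have e1 : p * q ≠ 1 := by
    intro e
    apply hpq
    calc p = p * (q * q) := by rw [h2, mul_one]
      _ = q := by rw [← mul_assoc, e, one_mul]
  have e2 : p * q ≠ p := fun e => hq (by simpa using e)
  have e3 : p * q ≠ q := fun e => hp (by simpa using e)
  haveI := Fintype.ofFinite Q
  have hc : ({u, 1, p, q, p * q} : Finset Q).card = 5 := by
    rw [Finset.card_insert_of_notMem, Finset.card_insert_of_notMem, Finset.card_insert_of_notMem,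
      Finset.card_insert_of_notMem, Finset.card_singleton]
    · simpa using fun e : q = p * q => e3 e.symm
    · simp only [Finset.mem_insert, Finset.mem_singleton, not_or]
      exact ⟨hpq, fun e => e2 e.symm⟩
    · simp only [Finset.mem_insert, Finset.mem_singleton, not_or]
      exact ⟨fun e => hp e.symm, fun e => hq e.symm, fun e => e1 e.symm⟩
    · simp only [Finset.mem_insert, Finset.mem_singleton, not_or]
      exact ⟨u1, u2, u3, u4⟩
  have := Finset.card_le_univ ({u, 1, p, q, p * q} : Finset Q)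
  rw [hc, ← Nat.card_eq_fintype_card] at this
  omega

theorem four_cosets [Finite G] {D S : Subgroup G} (hSD : S ≤ D) (hSn : ∀ s ∈ S, ∀ d ∈ D, d * s * d⁻¹ ∈ S)
    (hsq : ∀ d ∈ D, d * d ∈ S) (h4 : Nat.card D ≤ 4 * Nat.card S) {p q u : G} (hp : p ∈ D) (hq : q ∈ D)
    (hu : u ∈ D) (hpS : p ∉ S) (hqS : q ∉ S) (hpq : p⁻¹ * q ∉ S) :
    u ∈ S ∨ p⁻¹ * u ∈ S ∨ q⁻¹ * u ∈ S ∨ (p * q)⁻¹ * u ∈ S := by
  haveI hn : (S.subgroupOf D).Normal := ⟨fun x hx g => by
    rw [mem_subgroupOf] at hx ⊢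
    exact hSn _ hx _ g.2⟩
  have hcard : Nat.card (D ⧸ S.subgroupOf D) ≤ 4 := by
    have h1 := Subgroup.card_eq_card_quotient_mul_card_subgroup (S.subgroupOf D)
    rw [Nat.card_congr (Subgroup.subgroupOfEquivOfLe hSD).toEquiv] at h1
    rw [h1] at h4
    exact Nat.le_of_mul_le_mul_right h4 Nat.card_pos
  have hone : ∀ x : D, ((x : D) : D ⧸ S.subgroupOf D) = 1 ↔ (x : G) ∈ S := fun x => by
    rw [QuotientGroup.eq_one_iff, mem_subgroupOf]
  have heq : ∀ x y : D, ((x : D) : D ⧸ S.subgroupOf D) = (y : D ⧸ S.subgroupOf D) ↔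
      (x : G)⁻¹ * y ∈ S := fun x y => by
    rw [QuotientGroup.eq, mem_subgroupOf]; rfl
  have := four_elts (Q := D ⧸ S.subgroupOf D) (by
      intro x
      obtain ⟨d, rfl⟩ := QuotientGroup.mk_surjective x
      rw [← QuotientGroup.mk_mul, hone]
      exact hsq _ d.2) hcard (p := ((⟨p, hp⟩ : D) : D ⧸ S.subgroupOf D))
      (q := ((⟨q, hq⟩ : D) : D ⧸ S.subgroupOf D)) (by rw [Ne, hone]; exact hpS)
      (by rw [Ne, hone]; exact hqS) (by rw [Ne, heq]; exact hpq)
      ((⟨u, hu⟩ : D) : D ⧸ S.subgroupOf D)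
  rcases this with e | e | e | e
  · left; exact (hone _).1 e
  · right; left; exact (heq _ _).1 e.symm
  · right; right; left; exact (heq _ _).1 e.symm
  · right; right; right
    rw [← QuotientGroup.mk_mul] at e
    exact (heq _ _).1 e.symm

namespace Ta

variable [Finite G]

theorem step8 (h : Ta B t) {p q x : G} (hp : p ∈ Dd B) (hq : q ∈ Dd B) (hx : x ∈ Tt B)
    (h1 : cm p x ∈ Sq (Dd B)) (h2 : cm q x ∉ Sq (Dd B)) (hpS : p ∉ Sq (Dd B))
    (hqS : q ∉ Sq (Dd B)) (hpq : p⁻¹ * q ∉ Sq (Dd B)) : p⁻¹ * cm q x ∈ Sq (Dd B) := by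
  set S := Sq (Dd B) with hS
  have hxN : x ∈ normalizer (Tt B : Set G) := le_normalizer hx
  have hxN' : x⁻¹ ∈ normalizer (Tt B : Set G) := (normalizer _).inv_mem hxN
  have hr : cm q x ∈ Dd B := by
    rw [cm_eq]; exact (Dd B).mul_mem ((Dd B).inv_mem hq) (h.D_conjT hq hx)
  have hback : ∀ u, cj u x ∈ S → u ∈ S := by
    intro u hu
    have := h.S_conj hu hxN'
    rw [cj_cj, mul_inv_cancel] at this
    simpa [cj] using this
  have hcomm : ∀ a ∈ Dd B, ∀ b ∈ Dd B, a * b = b * a := h.Dab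
  have hSD : S ≤ Dd B := Sq_le _
  rcases four_cosets (D := Dd B) (S := S) hSD (by
      intro s hs d hd
      rw [hcomm d hd s (hSD hs)]; simpa using hs) (fun d hd => sq_mem hd)
      (h.RKD (Dd B) le_rfl) hp hq hr hpS hqS hpq with e | e | e | e
  · exact absurd e h2
  · exact e
  · -- r ∈ q S
    exfalso
    apply hqS
    apply hback
    have : cj q x = (q * q) * (q⁻¹ * cm q x) := by rw [cj_eq]; group
    rw [this]
    exact S.mul_mem (sq_mem hq) e
  · exfalso
    apply hpq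
    apply hback
    have e3 : cj (p⁻¹ * q) x = (cj p x)⁻¹ * cj q x := by rw [cj_mul, cj_inv]
    have e4 : cj q x = p * ((q * q) * ((p * q)⁻¹ * cm q x)) := by
      rw [cj_eq]
      have c1 : p * q = q * p := hcomm p hp q hq
      calc q * cm q x = q * (p * q) * ((p * q)⁻¹ * cm q x) := by group
        _ = (q * p) * q * ((p * q)⁻¹ * cm q x) := by group
        _ = (p * q) * q * ((p * q)⁻¹ * cm q x) := by rw [c1]
        _ = _ := by group
    rw [e3, e4, cj_eq p x, mul_inv_rev]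
    have : (cm p x)⁻¹ * p⁻¹ * (p * ((q * q) * ((p * q)⁻¹ * cm q x))) =
      (cm p x)⁻¹ * ((q * q) * ((p * q)⁻¹ * cm q x)) := by group
    rw [this]
    exact S.mul_mem (S.inv_mem h1) (S.mul_mem (sq_mem hq) e)

/-- (D8) -/
theorem D8 (h : Ta B t) (hel : ∀ y ∈ Tt B, y * y ∈ Dd B) {d x : G} (hd : d ∈ Dd B) (hx : x ∈ Tt B) :
    cm d x ∈ Sq (Dd B) := by
  by_contra hr
  set S := Sq (Dd B) with hS
  obtain ⟨y, hy, hyd⟩ := h.exists_v hd
  subst hyd
  have hvx := h.comm_mem_D hx h.tT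
  have hvy := h.comm_mem_D hy h.tT
  have hw := h.comm_mem_D hx hy
  have hxN : x ∈ normalizer (Tt B : Set G) := le_normalizer hx
  have hyN : y ∈ normalizer (Tt B : Set G) := le_normalizer hy
  have r4 := h.rel4 hx hy
  have hw2 : (cm x y)⁻¹ * (cm x y)⁻¹ ∈ S := sq_mem ((Dd B).inv_mem hw)
  have hself : ∀ u ∈ Tt B, cm (cm u t) u ∈ S := by
    intro u hu
    have hvu := h.comm_mem_D hu h.tT
    have h1 := h.rel1 (hel u hu)
    have h2 : cj (cm u t) u * cm u t ∈ S := by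
      rw [h1]; exact sq_mem ((Dd B).inv_mem (hel u hu))
    have h3 : cm (cm u t) u = ((cm u t)⁻¹ * (cm u t)⁻¹) * (cj (cm u t) u * cm u t) := by
      rw [cm_eq]
      have c : cj (cm u t) u * cm u t = cm u t * cj (cm u t) u :=
        h.Dab _ (h.D_conjT hvu hu) _ hvu
      rw [c]; group
    rw [h3]
    exact S.mul_mem (sq_mem ((Dd B).inv_mem hvu)) h2
  have hpy : cm (cm x t) y ∉ S := by
    intro e
    apply hr
    have : cm (cm y t) x = cm (cm x t) y * ((cm x y)⁻¹ * (cm x y)⁻¹)⁻¹ := by rw [r4]; group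
    rw [this]; exact S.mul_mem e (S.inv_mem hw2)
  have hqS : cm y t ∉ S := by
    intro e; apply hr
    rw [cm_eq]; exact S.mul_mem (S.inv_mem e) (h.S_conj e hxN)
  have hpS : cm x t ∉ S := by
    intro e; apply hpy
    rw [cm_eq]; exact S.mul_mem (S.inv_mem e) (h.S_conj e hyN)
  have hpq : (cm x t)⁻¹ * cm y t ∉ S := by
    intro e
    apply hr
    -- vy = vx * s
    set s := (cm x t)⁻¹ * cm y t with hs
    have e1 : cm y t = cm x t * s := by rw [hs]; group
    have e2 : cm (cm x t * s) x = cj (cm (cm x t) x) s * cm s x := by unfold cm cj; group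
    have hsD : s ∈ Dd B := Sq_le _ e
    have hm : cm (cm x t) x ∈ S := hself x hx
    rw [e1, e2, cj_of_comm (h.Dab _ (Sq_le _ hm) _ hsD)]
    refine S.mul_mem hm ?_
    rw [cm_eq]; exact S.mul_mem (S.inv_mem e) (h.S_conj e hxN)
  have hqp : (cm y t)⁻¹ * cm x t ∉ S := by
    intro e; apply hpq
    have := S.inv_mem e
    simpa using this
  have k1 := h.step8 hvx hvy hx (hself x hx) hr hpS hqS hpq
  have k2 := h.step8 hvy hvx hy (hself y hy) hpy hqS hpS hqp
  -- (vx)⁻¹ r ∈ S, (vy)⁻¹ (r w⁻²) ∈ S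
  apply hqp
  rw [r4] at k2
  set r := cm (cm y t) x
  have : (cm y t)⁻¹ * cm x t = ((cm y t)⁻¹ * (r * ((cm x y)⁻¹ * (cm x y)⁻¹))) *
      ((cm x y)⁻¹ * (cm x y)⁻¹)⁻¹ * ((cm x t)⁻¹ * r)⁻¹ := by group
  rw [this]
  exact S.mul_mem (S.mul_mem k2 (S.inv_mem hw2)) (S.inv_mem k1)

end Ta

/-- Frattini argument -/
theorem Fr [Finite G] (hG : IsPGroup 2 G) {H T : Subgroup G} (hHT : H ≤ T) (h : H ⊔ Sq T = T) : H = T := by
  by_contra hne
  haveI : Fact (Nat.Prime 2) := ⟨Nat.prime_two⟩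
  have hlt : H < T := lt_of_le_of_ne hHT hne
  obtain ⟨n, hn⟩ := (hG.to_subgroup T).exists_card_eq
  obtain ⟨m, hm⟩ := (hG.to_subgroup H).exists_card_eq
  have hmn : m < n := by
    by_contra hcon
    push Not at hcon
    apply hne
    refine Subgroup.eq_of_le_of_card_ge hHT ?_
    rw [hn, hm]; exact Nat.pow_le_pow_right (by norm_num) hcon
  obtain ⟨n', rfl⟩ : ∃ n', n = n' + 1 := ⟨n - 1, by omega⟩
  have hdvd : 2 ^ n' ∣ Nat.card T := by rw [hn]; exact pow_dvd_pow _ (Nat.le_succ _)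
  obtain ⟨K, hK, hHK⟩ := Sylow.exists_subgroup_card_pow_prime_le 2 hdvd (H.subgroupOf T) (by
    rw [Nat.card_congr (Subgroup.subgroupOfEquivOfLe hHT).toEquiv]; exact hm) (by omega : m ≤ n')
  have hidx : K.index = 2 := by
    have := K.card_mul_index
    rw [hK, hn, pow_succ] at this
    exact Nat.eq_of_mul_eq_mul_left (by positivity) this
  have hsq : Sq T ≤ K.map T.subtype := by
    refine Sq_le_of ?_
    intro x hx
    have h2 := Subgroup.mul_mem_iff_of_index_two hidx (a := (⟨x, hx⟩ : T)) (b := ⟨x, hx⟩)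
    exact ⟨_, h2.2 Iff.rfl, rfl⟩
  have hH : H ≤ K.map T.subtype := by
    intro x hx
    exact ⟨⟨x, hHT hx⟩, hHK (by rw [mem_subgroupOf]; exact hx), rfl⟩
  have hT : T ≤ K.map T.subtype := h.ge.trans (sup_le hH hsq)
  have hc : Nat.card T ≤ Nat.card (K.map T.subtype) :=
    Nat.le_of_dvd Nat.card_pos (Subgroup.card_dvd_of_le hT)
  rw [Nat.card_congr (K.equivMapOfInjective T.subtype T.subtype_injective).symm.toEquiv, hK, hn,
    pow_succ] at hc
  have : 0 < 2 ^ n' := by positivity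
  omega

theorem two_card_le [Finite G] {K L : Subgroup G} (h : K < L) : 2 * Nat.card K ≤ Nat.card L := by
  obtain ⟨c, hc⟩ := Subgroup.card_dvd_of_le h.le
  have hpos : 0 < Nat.card L := Nat.card_pos
  rcases c with _ | _ | c
  · omega
  · exact absurd (Subgroup.eq_of_le_of_card_ge h.le (by rw [hc]; omega)) h.ne
  · rw [hc, mul_comm]; exact Nat.mul_le_mul_left _ (by omega)

theorem card_mul_le [Finite G] {H D T : Subgroup G} (hHT : H ≤ T) (hDT : D ≤ T)
    (hn : H ≤ normalizer (D : Set G)) : Nat.card H * Nat.card D ≤ Nat.card T * Nat.card ↥(H ⊓ D) := by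
  rw [← H3.CardSup.card_sup_mul_card_inf H D hn]
  exact Nat.mul_le_mul_right _ (Nat.le_of_dvd Nat.card_pos (Subgroup.card_dvd_of_le (sup_le hHT hDT)))

end H87.SC3
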