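import Mathlib
import Cfsg.Prelude
import Cfsg.Agent.Lib.H87.Hr.SC3

set_option autoImplicit false
set_option maxHeartbeats 400000

/-! The contradiction in the case `B` normal. -/

namespace H87.SC3

open Subgroup H87.MW1 H87.MW2 H87.MW3 H87.MW4 H87.MW5 H87.MW7 H87.MW8 H87.SC1 H87.SC2
open scoped commutatorElement

variable {G : Type*} [Group G] {B : Subgroup G} {t : G}

theorem exists_max {P : ℕ → Prop} (h0 : ∃ k, P k) (N : ℕ) (hN : ∀ k, P k → k ≤ N) :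
    ∃ k, P k ∧ ∀ j, k < j → ¬ P j := by
  classical
  obtain ⟨k0, hk0⟩ := h0
  refine ⟨Nat.findGreatest P N, Nat.findGreatest_spec (hN k0 hk0) hk0, ?_⟩
  intro j hj hPj
  have := Nat.le_findGreatest (hN j hPj) hPj
  omega

theorem pow_bound [Finite G] (hG : IsPGroup 2 G) : ∃ n : ℕ, ∀ x : G, x ^ (2 ^ n) = 1 := by
  haveI : Fact (Nat.Prime 2) := ⟨Nat.prime_two⟩
  obtain ⟨n, hn⟩ := hG.exists_card_eq
  exact ⟨n, fun x => by rw [← hn]; exact pow_card_eq_one'⟩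

theorem card_sub [Finite G] {H K : Subgroup G} (h : H ≤ K) : Nat.card H ≤ Nat.card K :=
  Nat.le_of_dvd Nat.card_pos (Subgroup.card_dvd_of_le h)

namespace Ta

theorem conj (h : Ta B t) {x : G} (hx : x ∈ Tt B) : Ta B (x⁻¹ * t * x) where
  p := h.p
  B4 := h.B4
  B2 := h.B2
  tt := by
    calc x⁻¹ * t * x * (x⁻¹ * t * x) = x⁻¹ * (t * t) * x := by group
      _ = 1 := by rw [h.tt]; group
  tB := by
    intro hb
    have h1 := mem_centralizer_iff.1 hx _ hb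
    apply h.tB
    have : t = x * (x⁻¹ * t * x) * x⁻¹ := by group
    rw [this, ← h1]; simpa using hb
  tc := by
    intro b hb
    have h1 : b * x = x * b := mem_centralizer_iff.1 hx b hb
    have h2 := h.tc b hb
    have h3 : b * x⁻¹ = x⁻¹ * b := by
      calc b * x⁻¹ = x⁻¹ * (x * b) * x⁻¹ := by group
        _ = x⁻¹ * (b * x) * x⁻¹ := by rw [h1]
        _ = _ := by group
    calc b * (x⁻¹ * t * x) = (b * x⁻¹) * t * x := by group
      _ = x⁻¹ * (b * t) * x := by rw [h3]; group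
      _ = x⁻¹ * t * (b * x) := by rw [h2]; group
      _ = _ := by rw [h1]; group
  cent := by
    intro y hy hyt
    have hxb : ∀ b ∈ B, x⁻¹ * b * x = b := by
      intro b hb
      have h1 : b * x = x * b := mem_centralizer_iff.1 hx b hb
      rw [mul_assoc, h1]; group
    have hxb' : ∀ b ∈ B, x * b * x⁻¹ = b := by
      intro b hb
      have h1 : b * x = x * b := mem_centralizer_iff.1 hx b hb
      rw [← h1]; group
    have := h.cent (x * y * x⁻¹) (by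
      intro b hb
      calc b * (x * y * x⁻¹) = (x * b * x⁻¹) * (x * y * x⁻¹) := by rw [hxb' b hb]
        _ = x * (b * y) * x⁻¹ := by group
        _ = (x * y * x⁻¹) * (x * b * x⁻¹) := by rw [hy b hb]; group
        _ = _ := by rw [hxb' b hb]) (by
      calc (x * y * x⁻¹) * t = x * (y * (x⁻¹ * t * x)) * x⁻¹ := by group
        _ = _ := by rw [hyt]; group)
    rcases this with e | e
    · left
      have := hxb _ e
      have h2 : y = x⁻¹ * (x * y * x⁻¹) * x := by group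
      rw [h2, this]; exact e
    · right
      have := hxb _ e
      have h2 : x⁻¹ * t * x * y = x⁻¹ * (t * (x * y * x⁻¹)) * x := by group
      rw [h2, this]; exact e

theorem exists_z [Finite G] (h : Ta B t) [hBn : B.Normal] {g : G} (hg : g ∉ Tt B) (hgg : g * g ∈ Tt B) :
    ∃ z ∈ B, z ≠ 1 ∧ cj z g = z ∧ ∀ c ∈ B, c ≠ 1 → c ≠ z → cj c g = c * z := by
  have hex : ∃ b ∈ B, cj b g ≠ b := by
    by_contra hcon
    push Not at hcon
    apply hg
    rw [mem_centralizer_iff]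
    intro b hb
    have := hcon b hb
    unfold cj at this
    calc b * g = g * (g⁻¹ * b * g) := by group
      _ = _ := by rw [this]
  obtain ⟨b, hb, hbg⟩ := hex
  have hbb := h.B2 b hb
  have hb' : cj b g ∈ B := conj_mem' hb g
  have hgb : cj (cj b g) g = b := by
    rw [cj_cj]; exact cj_of_comm (mem_centralizer_iff.1 hgg b hb)
  have hz1 : b * cj b g ≠ 1 := by
    intro e
    apply hbg
    have : cj b g = b⁻¹ := (inv_eq_of_mul_eq_one_right e).symm
    rw [this, inv_eq_of_mul_eq_one_left hbb]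
  have hzB := B.mul_mem hb hb'
  refine ⟨b * cj b g, hzB, hz1, ?_, ?_⟩
  · rw [cj_mul, hgb]; exact h.Bab _ hb' _ hb
  · intro c hc hc1 hcz
    have hb1 : b ≠ 1 := by rintro rfl; exact hbg (cj_one g)
    have hbz : b ≠ b * cj b g := by
      intro e
      have : cj b g = 1 := by simpa using e
      rw [this] at hgb; rw [cj_one] at hgb; exact hb1 hgb.symm
    have := four_elts (Q := B) (fun x => Subtype.ext (h.B2 x x.2)) h.B4.le (p := ⟨b, hb⟩)
      (q := ⟨b * cj b g, hzB⟩) (fun e => hb1 (congrArg Subtype.val e))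
      (fun e => hz1 (congrArg Subtype.val e)) (fun e => hbz (congrArg Subtype.val e)) ⟨c, hc⟩
    have e1 : cj b g = b * (b * cj b g) := by rw [← mul_assoc, hbb, one_mul]
    rcases this with e | e | e | e
    · exact absurd (congrArg Subtype.val e) hc1
    · have : c = b := congrArg Subtype.val e
      subst this; exact e1
    · exact absurd (congrArg Subtype.val e) hcz
    · have : c = b * (b * cj b g) := congrArg Subtype.val e
      rw [← e1] at this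
      subst this
      rw [hgb]
      have : cj b g * (b * cj b g) = b * (cj b g * cj b g) := by
        rw [← mul_assoc, h.Bab _ hb' _ hb]; group
      rw [this, h.B2 _ hb', mul_one]

theorem Bpow (h : Ta B t) {b : G} (hb : b ∈ B) (n : ℕ) : b ^ (2 ^ (n + 1)) = 1 := by
  rw [pow_succ' 2 n, pow_mul, pow_two, h.B2 b hb, one_pow]

theorem cj_t [Finite G] (_h : Ta B t) {x g : G} (hgt : g * t = t * g) :
    cj (cm x t) g = (cm x g)⁻¹ * cm x t * cj (cm x g) t := by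
  have h1 : cj t g = t := cj_of_comm hgt.symm
  have h2 : cj (cm x t) g = cm (cj x g) (cj t g) := by unfold cj cm; group
  rw [h2, h1, cj_eq]
  unfold cm cj; group

theorem caseA [Finite G] (h : Ta B t) [hBn : B.Normal] (hBD : B ≤ Dd B) {T0 : Subgroup G}
    (hT0 : T0 ≤ Tt B) (hDT0 : Dd B ≤ T0) (hstep : ∀ x ∈ Tt B, x ∉ T0 → t * x ∈ T0)
    (hS : ∀ x ∈ T0, x * x ∈ Sq (Dd B)) {g : G} (hgT : g ∉ Tt B) (hgg : g * g ∈ Tt B)
    (hgt : g * t = t * g) (hu : ∀ x ∈ T0, cm x g ∈ Dd B) : False := by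
  classical
  obtain ⟨z, hz, hz1, hzg, hzc⟩ := h.exists_z hgT hgg
  obtain ⟨n, hn⟩ := pow_bound h.pg
  have hDab := h.Dab
  have hDn : ∀ d ∈ Dd B, ∀ x : G, cj d x ∈ Dd B := by
    intro d hd x
    haveI : (Tt B).Normal := by infer_instance
    exact h.D_conj hd (by rw [Subgroup.normalizer_eq_top]; trivial)
  -- lifting
  have hlift : ∀ d ∈ Dd B, ∃ x ∈ T0, cm x t = d := by
    intro d hd
    obtain ⟨x, hx, e⟩ := h.exists_v hd
    by_cases hx0 : x ∈ T0
    · exact ⟨x, hx0, e⟩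
    · refine ⟨t * x, hstep x hx hx0, ?_⟩
      rw [← e]; unfold cm; group
  -- existence of c
  have hcex : ∃ c ∈ B, c ≠ 1 ∧ c ≠ z := by
    by_contra hcon
    push Not at hcon
    have : Nat.card B ≤ 2 := by
      have h1 := card_le_fiber (H := B) (K := (⊥ : Subgroup G)) (fun x : G => x) ({1, z} : Finset G)
        (by
          intro x hx
          by_cases hx1 : x = 1
          · simp [hx1]
          · simp [hcon x hx hx1]) (by
          intro x _ y _ e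
          have e' : x = y := e
          subst e'; simp)
      have h2 : ({1, z} : Finset G).card ≤ 2 := Finset.card_le_two
      rw [Subgroup.card_bot, mul_one] at h1
      omega
    rw [h.B4] at this; omega
  -- powers and commuting
  have mulpow : ∀ a ∈ Dd B, ∀ b ∈ Dd B, ∀ m : ℕ, (a * b) ^ m = a ^ m * b ^ m := by
    intro a ha b hb m
    exact (show Commute a b from hDab a ha b hb).mul_pow m
  have powD : ∀ a ∈ Dd B, ∀ m : ℕ, a ^ m ∈ Dd B := fun a ha m => (Dd B).pow_mem ha m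
  -- commutators to powers
  have cmpow : ∀ a ∈ Dd B, ∀ (x : G) (m : ℕ), (cm a x) ^ m = cm (a ^ m) x := by
    intro a ha x m
    rw [cm_eq, cm_eq, mulpow _ ((Dd B).inv_mem ha) _ (hDn a ha x), cj_pow, inv_pow]
  have cmD : ∀ a ∈ Dd B, ∀ x : G, cm a x ∈ Dd B := by
    intro a ha x
    rw [cm_eq]; exact (Dd B).mul_mem ((Dd B).inv_mem ha) (hDn a ha x)
  -- k
  obtain ⟨k, ⟨δ, hδ, hkB, hk1, hkz⟩, hkmax⟩ := exists_max
    (P := fun k => ∃ δ ∈ Dd B, δ ^ (2 ^ k) ∈ B ∧ δ ^ (2 ^ k) ≠ 1 ∧ δ ^ (2 ^ k) ≠ z) (by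
      obtain ⟨c, hc, hc1, hcz⟩ := hcex
      exact ⟨0, c, hBD hc, by simpa using hc, by simpa using hc1, by simpa using hcz⟩) n (by
      rintro k ⟨δ, _, _, h1, _⟩
      by_contra hcon
      push Not at hcon
      apply h1
      obtain ⟨m, rfl⟩ := Nat.exists_eq_add_of_le hcon.le
      rw [pow_add, pow_mul, hn, one_pow])
  have hk' : ∀ d ∈ Dd B, ∀ j, k < j → d ^ (2 ^ j) ∈ B → d ^ (2 ^ j) = 1 ∨ d ^ (2 ^ j) = z := by
    intro d hd j hj hdB
    by_contra hcon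
    push Not at hcon
    exact hkmax j hj ⟨d, hd, hdB, hcon.1, hcon.2⟩
  -- j
  obtain ⟨j, ⟨f, hf, hfz⟩, hjmax⟩ := exists_max (P := fun j => ∃ f ∈ Dd B, f ^ (2 ^ j) = z)
    ⟨0, z, hBD hz, by simp⟩ n (by
      rintro j ⟨f, _, h1⟩
      by_contra hcon
      push Not at hcon
      apply hz1
      obtain ⟨m, rfl⟩ := Nat.exists_eq_add_of_le hcon.le
      rw [← h1, pow_add, pow_mul, hn, one_pow])
  obtain ⟨x, hx, hxδ⟩ := hlift δ hδ
  set u := cm x g with hudef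
  have huD : u ∈ Dd B := hu x hx
  have hut : cj u t = u⁻¹ := h.inv huD
  have e2 : cj δ g = δ * (u⁻¹ * u⁻¹) := by
    rw [← hxδ, h.cj_t hgt, hut, hxδ]
    calc u⁻¹ * δ * u⁻¹ = (δ * u⁻¹) * u⁻¹ := by rw [hDab _ ((Dd B).inv_mem huD) δ hδ]
      _ = _ := by group
  have huz : u ^ (2 ^ (k + 1)) = z := by
    have h1 : cj (δ ^ (2 ^ k)) g = δ ^ (2 ^ k) * z := hzc _ hkB hk1 hkz
    rw [cj_pow, e2, mulpow _ hδ _ ((Dd B).mul_mem ((Dd B).inv_mem huD) ((Dd B).inv_mem huD))] at h1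
    have h2 := mul_left_cancel h1
    rw [← pow_two, ← pow_mul, ← pow_succ', inv_pow] at h2
    rw [← inv_inj, h2]
    exact (inv_eq_of_mul_eq_one_left (h.B2 z hz)).symm
  have hjk : k < j := by
    by_contra hcon
    push Not at hcon
    exact hjmax (k + 1) (by omega) ⟨u, huD, huz⟩
  -- exponent of D
  have hexp : ∀ d ∈ Dd B, d ^ (2 ^ (j + 1)) = 1 := by
    intro d hd
    by_contra hne
    -- least m with d ^ 2^m = 1
    have hex : ∃ m, d ^ (2 ^ m) = 1 := ⟨n, hn d⟩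
    have hmin := Nat.find_spec hex
    have hlt : j + 1 < Nat.find hex := by
      by_contra hcon
      push Not at hcon
      apply hne
      obtain ⟨m, hm⟩ := Nat.exists_eq_add_of_le hcon
      rw [hm, pow_add, pow_mul, hmin, one_pow]
    obtain ⟨m, hm⟩ : ∃ m, Nat.find hex = m + 1 := ⟨Nat.find hex - 1, by omega⟩
    have h1 : d ^ (2 ^ m) ≠ 1 := Nat.find_min hex (by omega)
    have h2 : d ^ (2 ^ m) * d ^ (2 ^ m) = 1 := by
      rw [← pow_two, ← pow_mul, ← pow_succ, ← hm]; exact hmin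
    have h3 : d ^ (2 ^ m) ∈ B := h.D1 (powD d hd _) h2
    rcases hk' d hd m (by omega) h3 with e | e
    · exact h1 e
    · exact hjmax m (by omega) ⟨d, hd, e⟩
  -- x inverts u' = u ^ 2^k
  obtain ⟨ξ, hξ, hξx⟩ := h.sqD (hS x hx)
  have hxT := hT0 hx
  have hrel1 := h.rel1 (x := x) (Sq_le _ (hS x hx))
  rw [hxδ, hξx] at hrel1
  have hξ4 : ξ ^ (2 ^ (k + 2)) = 1 := by
    have h1 : (cj δ x * δ) ^ (2 ^ k) = 1 := by
      rw [mulpow _ (hDn δ hδ x) _ hδ, ← cj_pow,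
        cj_of_comm (mem_centralizer_iff.1 hxT _ hkB)]
      exact h.B2 _ hkB
    rw [hrel1] at h1
    have h2 : (ξ * ξ)⁻¹ * (ξ * ξ)⁻¹ = (ξ ^ 4)⁻¹ := by rw [p4]; group
    rw [h2, inv_pow, inv_eq_one, ← pow_mul] at h1
    rw [pow_add, mul_comm]; exact h1
  have hξB : ξ ^ (2 ^ (k + 1)) ∈ B := by
    apply h.D1 (powD ξ hξ _)
    rw [← pow_two, ← pow_mul, ← pow_succ]; exact hξ4
  have hξg : cm (ξ ^ (2 ^ (k + 1))) g = 1 := by
    rcases hk' ξ hξ (k + 1) (by omega) hξB with e | e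
    · rw [e]; unfold cm; group
    · rw [e, cm_eq, hzg]; group
  have hinv1 : cj (u ^ (2 ^ k)) x * u ^ (2 ^ k) = 1 := by
    rw [cj_pow, ← mulpow _ (hDn u huD x) _ huD, hudef, ← sq_cm, hξx, cmpow _ ((Dd B).mul_mem hξ hξ),
      ← pow_two, ← pow_mul, ← pow_succ']
    exact hξg
  -- u0
  obtain ⟨i, rfl⟩ : ∃ i, j = i + 1 := ⟨j - 1, by omega⟩
  set u0 := f ^ (2 ^ i) with hu0
  have hu0D : u0 ∈ Dd B := powD f hf _
  have hu0z : u0 * u0 = z := by
    rw [hu0, ← pow_two, ← pow_mul, ← pow_succ]; exact hfz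
  set u1 := u ^ (2 ^ k) with hu1
  have hu1D : u1 ∈ Dd B := powD u huD _
  have hu1z : u1 * u1 = z := by
    rw [hu1, ← pow_two, ← pow_mul, ← pow_succ]; exact huz
  have hβ : u0 * u1⁻¹ ∈ B := by
    apply h.D1 ((Dd B).mul_mem hu0D ((Dd B).inv_mem hu1D))
    calc u0 * u1⁻¹ * (u0 * u1⁻¹) = u0 * (u1⁻¹ * u0) * u1⁻¹ := by group
      _ = u0 * (u0 * u1⁻¹) * u1⁻¹ := by rw [hDab _ ((Dd B).inv_mem hu1D) _ hu0D]
      _ = (u0 * u0) * (u1 * u1)⁻¹ := by group
      _ = 1 := by rw [hu0z, hu1z]; group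
  have hinv0 : cj u0 x = u0⁻¹ := by
    have h1 : cj (u0 * u1⁻¹) x = u0 * u1⁻¹ := cj_of_comm (mem_centralizer_iff.1 hxT _ hβ)
    have h2 : cj u1 x = u1⁻¹ := eq_inv_of_mul_eq_one_left hinv1
    have h3 : u0 = u0 * u1⁻¹ * u1 := by group
    have h4 := h.B2 _ hβ
    calc cj u0 x = cj (u0 * u1⁻¹ * u1) x := by rw [← h3]
      _ = u0 * u1⁻¹ * u1⁻¹ := by rw [cj_mul, h1, h2]
      _ = (u0 * u1⁻¹)⁻¹ * u1⁻¹ := by rw [inv_eq_of_mul_eq_one_left h4]
      _ = u1 * (u0⁻¹ * u1⁻¹) := by group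
      _ = u1 * (u1⁻¹ * u0⁻¹) := by
        rw [hDab _ ((Dd B).inv_mem hu0D) _ ((Dd B).inv_mem hu1D)]
      _ = u0⁻¹ := by group
  -- rel4
  obtain ⟨y, hy, hyf⟩ := hlift f hf
  have hyT := hT0 hy
  have r4 := h.rel4 hxT hyT
  rw [hxδ, hyf] at r4
  have hxyS : cm x y ∈ Sq (Dd B) := by
    have : cm x y = (x⁻¹ * x⁻¹) * ((x * y⁻¹) * (x * y⁻¹)) * (y * y) := by unfold cm; group
    rw [this]
    exact (Sq (Dd B)).mul_mem ((Sq (Dd B)).mul_mem (hS _ (T0.inv_mem hx))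
      (hS _ (T0.mul_mem hx (T0.inv_mem hy)))) (hS _ hy)
  obtain ⟨ζ, hζ, hζe⟩ := h.sqD hxyS
  rw [hζe] at r4
  have h6 : (cm δ y) ^ (2 ^ i) = (cm f x) ^ (2 ^ i) * ((ζ * ζ)⁻¹ * (ζ * ζ)⁻¹) ^ (2 ^ i) := by
    rw [r4]
    exact mulpow _ (cmD f hf x) _ ((Dd B).mul_mem ((Dd B).inv_mem ((Dd B).mul_mem hζ hζ))
      ((Dd B).inv_mem ((Dd B).mul_mem hζ hζ))) _
  have h7 : ((ζ * ζ)⁻¹ * (ζ * ζ)⁻¹) ^ (2 ^ i) = 1 := by
    have h2 : (ζ * ζ)⁻¹ * (ζ * ζ)⁻¹ = (ζ ^ 4)⁻¹ := by rw [p4]; group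
    rw [h2, inv_pow, inv_eq_one, ← pow_mul]
    have := hexp ζ hζ
    have h8 : 4 * 2 ^ i = 2 ^ (i + 1 + 1) := by ring
    rw [h8]; exact this
  have h8 : (cm δ y) ^ (2 ^ i) = 1 := by
    rw [cmpow δ hδ]
    have h9 : δ ^ (2 ^ i) ∈ B := by
      obtain ⟨m, hm⟩ := Nat.exists_eq_add_of_le (show k ≤ i by omega)
      rw [hm, pow_add, pow_mul]
      exact B.pow_mem hkB _
    exact cm_of_comm (mem_centralizer_iff.1 hyT _ h9)
  rw [h8, h7, mul_one, cmpow f hf, ← hu0, cm_eq, hinv0] at h6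
  apply hz1
  have : z⁻¹ = 1 := by rw [h6, ← hu0z]; group
  exact inv_eq_one.1 this

end Ta

end H87.SC3
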