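import Mathlib
import Cfsg.Prelude
import Cfsg.Agent.Lib.H87.Hr.SC4

set_option autoImplicit false
set_option maxHeartbeats 400000

/-! The case `B` normal. -/

namespace H87.SC3

open Subgroup H87.MW1 H87.MW2 H87.MW3 H87.MW4 H87.MW5 H87.MW7 H87.MW8 H87.SC1 H87.SC2
open scoped commutatorElement

variable {G : Type*} [Group G] {B : Subgroup G} {t : G}

theorem comm_le_Sq (X : Subgroup G) : ⁅X, X⁆ ≤ Sq X := by
  rw [commutator_le]
  intro a ha b hb
  have := comm_mem (X.inv_mem ha) (X.inv_mem hb)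
  rw [commutatorElement_def]
  simpa using this

theorem sq_sup {H D : Subgroup G} [hD : D.Normal] (hSq : Sq H ≤ D) : Sq (H ⊔ D) ≤ D := by
  refine Sq_le_of ?_
  intro x hx
  obtain ⟨a, ha, d, hd, rfl⟩ := Subgroup.mem_sup_of_normal_right.1 hx
  have : a * d * (a * d) = (a * a) * cj d a * d := by unfold cj; group
  rw [this]
  exact D.mul_mem (D.mul_mem (hSq (sq_mem ha)) (conj_mem' hd a)) hd

theorem full [Finite G] (hG : IsPGroup 2 G) {H D : Subgroup G} [hD : D.Normal] (hSq : Sq H ≤ D)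
    (hle : D ≤ Sq (H ⊔ D)) : Sq H = D := by
  have h1 : Sq (H ⊔ D) = D := le_antisymm (sq_sup hSq) hle
  have h2 : H = H ⊔ D := Fr hG le_sup_left (by rw [h1])
  rw [← h2] at h1
  exact h1

theorem card_sup_D [Finite G] {H D : Subgroup G} [hD : D.Normal] :
    Nat.card ↥(H ⊔ D) * Nat.card ↥(H ⊓ D) = Nat.card H * Nat.card D :=
  H3.CardSup.card_sup_mul_card_inf H D (by rw [Subgroup.normalizer_eq_top]; exact le_top)

namespace Ta

theorem four [Finite G] (h : Ta B t) {H : Subgroup G} (hBH : B ≤ H) (htH : t ∈ H) :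
    Nat.card ↥(H ⊓ Tt B) ≤ 8 * Nat.card (Sq (H ⊓ Tt B)) := by
  set X := H ⊓ Tt B with hXdef
  have hX : IsPGroup 2 X := h.pg.to_subgroup _
  have hBX : B ≤ X := le_inf hBH h.BT
  have hc := camina hX (B.subgroupOf X) (by
      intro x hx
      rw [mem_subgroupOf] at hx
      rw [mem_center_iff]
      intro g
      exact Subtype.ext ((mem_centralizer_iff.1 g.2.2 x hx).symm)) (by
      rw [Nat.card_congr (Subgroup.subgroupOfEquivOfLe hBX).toEquiv]; exact h.B4)
    (t := ⟨t, ⟨htH, h.tT⟩⟩) (by rw [mem_subgroupOf]; exact h.tB) (by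
      intro x hx
      rw [mem_subgroupOf, mem_subgroupOf]
      exact h.cent x (fun b hb => mem_centralizer_iff.1 x.2.2 b hb) (congrArg Subtype.val hx))
  have hmap : (commutator X).map X.subtype = ⁅X, X⁆ := Subgroup.map_subtype_commutator _
  have hcD : Nat.card (commutator X) = Nat.card ↥(⁅X, X⁆) := by
    rw [← hmap]
    exact Nat.card_congr ((commutator X).equivMapOfInjective _ X.subtype_injective).toEquiv
  rw [hc.1, hcD]
  exact Nat.mul_le_mul_left _ (card_sub (comm_le_Sq X))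

variable [Finite G]

theorem Dnorm (h : Ta B t) [hBn : B.Normal] : (Dd B).Normal := by
  haveI : (Tt B).Normal := by infer_instance
  exact ⟨fun n hn g => by
    have := h.D_conj hn (y := g⁻¹) (by rw [Subgroup.normalizer_eq_top]; trivial)
    unfold cj at this
    simpa using this⟩

theorem cardT_le (h : Ta B t) {H : Subgroup G} (hH : H ≤ Tt B) :
    Nat.card H ≤ 8 * Nat.card ↥(H ⊓ Dd B) := by
  have h1 := card_mul_le (H := H) (D := Dd B) (T := Tt B) hH h.DT (by
    intro x hx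
    rw [mem_normalizer_iff]
    intro y
    constructor
    · intro hy
      have := h.D_conjT hy ((Tt B).inv_mem (hH hx))
      unfold cj at this; simpa using this
    · intro hy
      have := h.D_conjT hy (hH hx)
      have e : cj (x * y * x⁻¹) x = y := by unfold cj; group
      rwa [e] at this)
  rw [h.base.1] at h1
  have h2 : Nat.card H * Nat.card (Dd B) ≤ (8 * Nat.card ↥(H ⊓ Dd B)) * Nat.card (Dd B) := by
    calc Nat.card H * Nat.card (Dd B) ≤ 8 * Nat.card (Dd B) * Nat.card ↥(H ⊓ Dd B) := h1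
      _ = _ := by ring
  exact Nat.le_of_mul_le_mul_right h2 Nat.card_pos

/-- subgroups of `T` -/
theorem leT (h : Ta B t) [hBn : B.Normal] {H : Subgroup G} (hH : H ≤ Tt B) :
    Nat.card H ≤ 16 * Nat.card (Sq H) := by
  haveI := h.Dnorm
  by_contra hbad
  push Not at hbad
  have hKH : H ⊓ Dd B ≤ H := inf_le_left
  have hK4 : Nat.card ↥(H ⊓ Dd B) ≤ 2 ^ 2 * Nat.card (Sq (H ⊓ Dd B)) := h.RKD _ inf_le_right
  have hb4 : ¬ Nat.card H ≤ 2 ^ 2 * Nat.card ↥((H ⊓ Dd B) ⊔ Sq H) := fun hb => by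
    have := add hKH (inf_Sq_ge hKH hK4) hb
    norm_num at this
    omega
  have h8 := h.cardT_le hH
  have hSq : Sq H ≤ H ⊓ Dd B := by
    by_contra hn
    have h1 : H ⊓ Dd B < (H ⊓ Dd B) ⊔ Sq H := by
      refine lt_of_le_of_ne le_sup_left fun e => hn ?_
      rw [e]; exact le_sup_right
    have := two_card_le h1
    apply hb4; omega
  rw [sup_eq_left.2 hSq] at hb4
  have h1 := card_sup_D (H := H) (D := Dd B)
  have hMT : H ⊔ Dd B = Tt B := by
    by_contra hne
    have h2 := two_card_le (lt_of_le_of_ne (sup_le hH h.DT) hne)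
    rw [h.base.1] at h2
    have h3 : Nat.card ↥(H ⊔ Dd B) ≤ 4 * Nat.card (Dd B) := by omega
    apply hb4
    have h4 : Nat.card H * Nat.card (Dd B) ≤ (4 * Nat.card ↥(H ⊓ Dd B)) * Nat.card (Dd B) := by
      rw [← h1]
      calc _ ≤ 4 * Nat.card (Dd B) * Nat.card ↥(H ⊓ Dd B) := Nat.mul_le_mul_right _ h3
        _ = _ := by ring
    have := Nat.le_of_mul_le_mul_right h4 Nat.card_pos
    omega
  have := full h.pg (hSq.trans inf_le_right) (by rw [hMT]; exact comm_le_Sq _)
  have h5 := card_sub hH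
  rw [h.base.1, ← this] at h5
  omega

/-- the final configuration, `[t,g] ∉ D` -/
theorem caseB (h : Ta B t) (hBD : B ≤ Dd B) (hDn : (Dd B).Normal) {T0 : Subgroup G}
    (hDT0 : Dd B ≤ T0) (htT0 : t ∉ T0) {w : G} (hwT0 : w ∈ T0) (hwT : w ∈ Tt B) (hwD : w ∉ Dd B)
    (hcen : ∀ d ∈ Dd B, w * d = d * w) (hwt : cj w t = w⁻¹) (hww : w * w ∈ Dd B) :
    ∃ N : Subgroup G, RK 2 N ∧ Dd B ≤ N ∧ w ∈ N := by
  have hwS : ∀ d ∈ Dd B, (w * d) * (w * d) ≠ 1 := by
    intro d hd e
    have h1 : cj (w * d) t = w * d := by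
      rw [cj_mul, hwt, h.inv hd]
      have : w⁻¹ * d⁻¹ = (w * d)⁻¹ := by rw [mul_inv_rev, ← mul_inv_rev, ← mul_inv_rev, hcen d hd]
      rw [this]; exact inv_eq_of_mul_eq_one_left e
    have h2 : (w * d) * t = t * (w * d) := by
      unfold cj at h1
      calc (w * d) * t = t * (t⁻¹ * (w * d) * t) := by group
        _ = _ := by rw [h1]
    rcases h.cent (w * d) (fun b hb => mem_centralizer_iff.1
      ((Tt B).mul_mem hwT (h.DT hd)) b hb) h2 with e1 | e1
    · apply hwD
      have := (Dd B).mul_mem (hBD e1) ((Dd B).inv_mem hd)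
      simpa using this
    · apply htT0
      have h3 : t = (t * (w * d)) * (w * d)⁻¹ := by group
      rw [h3]
      exact T0.mul_mem (hDT0 (hBD e1)) (T0.inv_mem (T0.mul_mem hwT0 (hDT0 hd)))
  have hform : ∀ x ∈ Dd B ⊔ zpowers w, x ∈ Dd B ∨ ∃ d ∈ Dd B, x = w * d := by
    intro x hx
    rw [sup_comm] at hx
    obtain ⟨y, hy, d, hd, rfl⟩ := Subgroup.mem_sup_of_normal_right.1 hx
    obtain ⟨i, rfl⟩ := mem_zpowers_iff.1 hy
    rcases Int.even_or_odd' i with ⟨j, rfl | rfl⟩
    · left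
      rw [zpow_mul]
      refine (Dd B).mul_mem ((Dd B).zpow_mem ?_ _) hd
      rw [zpow_ofNat, pow_two]; exact hww
    · right
      refine ⟨(w ^ (2 : ℤ)) ^ j * d, (Dd B).mul_mem ((Dd B).zpow_mem ?_ _) hd, ?_⟩
      · rw [zpow_ofNat, pow_two]; exact hww
      · rw [add_comm, zpow_add, zpow_one, zpow_mul, mul_assoc]
  have hDab := h.Dab
  refine ⟨Dd B ⊔ zpowers w, ?_, le_sup_left,
    (le_sup_right : zpowers w ≤ Dd B ⊔ zpowers w) (mem_zpowers w)⟩
  intro K hK
  have hZ : Z2 K := by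
    refine ⟨fun x _ => h.p x, ?_⟩
    intro x hx _ y hy
    rcases hform x (hK hx) with h1 | ⟨d, hd, rfl⟩ <;> rcases hform y (hK hy) with h2 | ⟨e, he, rfl⟩
    · exact hDab _ h1 _ h2
    · calc x * (w * e) = (x * w) * e := by group
        _ = w * (x * e) := by rw [← hcen x h1]; group
        _ = _ := by rw [hDab _ h1 _ he]; group
    · calc (w * d) * y = w * (d * y) := by group
        _ = (w * y) * d := by rw [hDab _ hd _ h2]; group
        _ = _ := by rw [hcen y h2]; group
    · calc w * d * (w * e) = w * (d * w) * e := by group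
        _ = w * w * (d * e) := by rw [← hcen d hd]; group
        _ = w * w * (e * d) := by rw [hDab _ hd _ he]
        _ = w * (w * e) * d := by group
        _ = w * (e * w) * d := by rw [hcen e he]
        _ = _ := by group
  refine h.ranks hZ ?_
  intro x hx hxx
  rcases hform x (hK hx) with h1 | ⟨d, hd, rfl⟩
  · exact h.D1 h1 hxx
  · exact absurd hxx (hwS d hd)

end Ta

end H87.SC3
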