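import Mathlib
import Cfsg.Prelude
import Cfsg.Agent.Lib.H87.Hr.SC5

set_option autoImplicit false
set_option maxHeartbeats 400000

/-! The case `B` normal: end. -/

namespace H87.SC3

open Subgroup H87.MW1 H87.MW2 H87.MW3 H87.MW4 H87.MW5 H87.MW7 H87.MW8 H87.SC1 H87.SC2
open scoped commutatorElement

variable {G : Type*} [Group G] {B : Subgroup G} {t : G}

namespace Ta

variable [Finite G]

theorem main2a (h : Ta B t) [hBn : B.Normal] (hidx : (Tt B).index ≤ 2) : RK 4 (⊤ : Subgroup G) := by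
  classical
  intro H _
  have e16 : (2 : ℕ) ^ 4 = 16 := by norm_num
  rw [e16]
  by_cases hHT : H ≤ Tt B
  · exact h.leT hHT
  haveI hDn := h.Dnorm
  haveI hTn : (Tt B).Normal := by infer_instance
  have hind : (Tt B).index = 2 := by
    have h1 : (Tt B).index ≠ 1 := fun e => hHT (by rw [index_eq_one.1 e]; exact le_top)
    have h2 : (Tt B).index ≠ 0 := index_ne_zero_of_finite
    omega
  have h2 : ∀ a b, a * b ∈ Tt B ↔ (a ∈ Tt B ↔ b ∈ Tt B) := fun a b => mul_mem_iff_of_index_two hind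
  obtain ⟨g, hgH, hgT⟩ := SetLike.not_le_iff_exists.1 hHT
  by_contra hbad
  push Not at hbad
  have hTH : Nat.card H ≤ 2 * Nat.card ↥(H ⊓ Tt B) := card_le_two_mul (y := g⁻¹) (by
     intro x hx
     by_cases hxT : x ∈ Tt B
     · exact Or.inl ⟨hx, hxT⟩
     · refine Or.inr ⟨H.mul_mem (H.inv_mem hgH) hx, (h2 _ _).2 ?_⟩
       constructor
       · intro e; exact absurd ((Tt B).inv_mem_iff.1 e) hgT
       · intro e; exact absurd e hxT)
  have h8 := h.cardT_le (H := H ⊓ Tt B) inf_le_right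
  have hTK : H ⊓ Tt B ⊓ Dd B = H ⊓ Dd B := by rw [inf_assoc, inf_eq_right.2 h.DT]
  rw [hTK] at h8
  set K := H ⊓ Dd B with hKdef
  have hKH : K ≤ H := inf_le_left
  have hKD : K ≤ Dd B := inf_le_right
  have hT8 := h.base.1
  have hcG : Nat.card G ≤ 2 * Nat.card (Tt B) := by
    rw [← card_mul_index (Tt B), mul_comm, hind]
  have hK4 : Nat.card K ≤ 2 ^ 2 * Nat.card (Sq K) := h.RKD K hKD
  have hSqK : Sq K ≤ K ⊓ Sq H := le_inf (Sq_le K) (Sq_mono hKH)
  have hcS := card_sub hSqK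
  have hposD : 0 < Nat.card (Dd B) := Nat.card_pos
  have hposK : 0 < Nat.card K := Nat.card_pos
  have hb4 : ¬ Nat.card H ≤ 2 ^ 2 * Nat.card ↥(K ⊔ Sq H) := fun hb => by
    have := add hKH (inf_Sq_ge hKH hK4) hb
    norm_num at this
    omega
  have hlt : ∀ {n : ℕ}, Nat.card H ≤ (2 * n) * Nat.card K → ¬ Nat.card H ≤ n * Nat.card ↥(K ⊔ Sq H) →
      Sq H ≤ K := by
    intro n hn hn'
    by_contra hcon
    have h1 : K < K ⊔ Sq H := by
      refine lt_of_le_of_ne le_sup_left fun e => hcon ?_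
      rw [e]; exact le_sup_right
    have := two_card_le h1
    apply hn'
    calc Nat.card H ≤ (2 * n) * Nat.card K := hn
      _ = n * (2 * Nat.card K) := by ring
      _ ≤ _ := Nat.mul_le_mul_left _ this
  have hMK := card_sup_D (H := H) (D := Dd B)
  rw [← hKdef] at hMK
  have hb8 : Nat.card H ≤ 2 ^ 3 * Nat.card ↥(K ⊔ Sq H) := by
    by_contra hn
    have hSq : Sq H ≤ K := hlt (n := 8) (by omega) (by norm_num at hn; omega)
    rw [sup_eq_left.2 hSq] at hn
    have hM : H ⊔ Dd B = ⊤ := by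
      by_contra hne
      have h3 := two_card_le (lt_of_le_of_ne (le_top : H ⊔ Dd B ≤ ⊤) hne)
      rw [Nat.card_congr Subgroup.topEquiv.toEquiv] at h3
      have h4 : Nat.card ↥(H ⊔ Dd B) ≤ 8 * Nat.card (Dd B) := by omega
      apply hn
      have h5 : Nat.card H * Nat.card (Dd B) ≤ (8 * Nat.card K) * Nat.card (Dd B) := by
        rw [← hMK]
        calc _ ≤ 8 * Nat.card (Dd B) * Nat.card K := Nat.mul_le_mul_right _ h4
          _ = _ := by ring
      have := Nat.le_of_mul_le_mul_right h5 hposD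
      norm_num; omega
    have h3 := full h.pg (hSq.trans hKD) (by
      rw [hM]; exact (comm_le_Sq (Tt B)).trans (Sq_mono le_top))
    have h4 := card_sub hKD
    rw [← h3] at h4
    omega
  have hα : ¬ Nat.card K ≤ 2 ^ 1 * Nat.card ↥(K ⊓ Sq H) := fun ha => by
    have := add hKH ha hb8
    norm_num at this
    omega
  have hSqKe : Sq K = K ⊓ Sq H := by
    by_contra hne
    have := two_card_le (lt_of_le_of_ne hSqK hne)
    apply hα; omega
  have hBK : B ≤ K := by
    have h1 := card_le_of_Om (h.DZ2.sub hKD)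
    have h3 : 2 < Nat.card (OmS K 1) := by
      by_contra hcon
      push Not at hcon
      apply hα
      rw [← hSqKe]
      exact h1.trans (Nat.mul_le_mul_right _ (by omega))
    have h4 : Nat.card (OmS K 1) ≤ Nat.card ↥(K ⊓ B) := by
      refine Nat.card_le_card_of_injective (fun x : OmS K 1 => (⟨x, x.2.1, h.D1 (hKD x.2.1) (by
        have := x.2.2; rwa [pow_one, pow_two] at this)⟩ : ↥(K ⊓ B))) ?_
      intro x y hxy
      exact Subtype.ext (congrArg (fun q : ↥(K ⊓ B) => (q : G)) hxy)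
    have h5 : K ⊓ B = B := by
      by_contra hne
      have := two_card_le (lt_of_le_of_ne (inf_le_right : K ⊓ B ≤ B) hne)
      rw [h.B4] at this
      omega
    rw [← h5]; exact inf_le_left
  have hBD : B ≤ Dd B := hBK.trans hKD
  have hBH : B ≤ H := hBK.trans hKH
  -- `tD` misses `H`
  have htD : ∀ d ∈ Dd B, t * d ∉ H := by
    intro d hd hm
    obtain ⟨x, hx, e⟩ := h.base.2 d hd
    rw [← e] at hm
    have h1 := (h.conj hx).four hBH hm
    have h3 := card_sub (Sq_mono (inf_le_left : H ⊓ Tt B ≤ H))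
    omega
  set T0 := (H ⊓ Tt B) ⊔ Dd B with hT0def
  have htT0 : t ∉ T0 := by
    intro hm
    obtain ⟨y, hy, d, hd, e⟩ := Subgroup.mem_sup_of_normal_right.1 hm
    apply htD d⁻¹ ((Dd B).inv_mem hd)
    rw [← e]
    have : y * d * d⁻¹ = y := by group
    rw [this]; exact hy.1
  have hT0T : T0 ≤ Tt B := sup_le inf_le_right h.DT
  have hDT0 : Dd B ≤ T0 := le_sup_right
  have hT0lt : T0 < Tt B := lt_of_le_of_ne hT0T fun e => htT0 (by rw [e]; exact h.tT)
  have hT0c := two_card_le hT0lt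
  rw [hT8] at hT0c
  have hT0K := card_sup_D (H := H ⊓ Tt B) (D := Dd B)
  rw [hTK, ← hT0def] at hT0K
  have hHT4 : Nat.card ↥(H ⊓ Tt B) ≤ 4 * Nat.card K := by
    have h5 : Nat.card ↥(H ⊓ Tt B) * Nat.card (Dd B) ≤ (4 * Nat.card K) * Nat.card (Dd B) := by
      rw [← hT0K]
      calc _ ≤ 4 * Nat.card (Dd B) * Nat.card K := Nat.mul_le_mul_right _ (by omega)
        _ = _ := by ring
    exact Nat.le_of_mul_le_mul_right h5 hposD
  have hSqHK : Sq H ≤ K := hlt (n := 4) (by omega) (by norm_num at hb4; omega)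
  have hSqH : Sq H = Sq K := by rw [hSqKe, inf_eq_right.2 hSqHK]
  have hSqHD : Sq H ≤ Sq (Dd B) := by rw [hSqH]; exact Sq_mono hKD
  rw [sup_eq_left.2 hSqHK] at hb4
  have hTc : Nat.card (Tt B) = Nat.card T0 * 2 := by
    have h3 : 2 * Nat.card K < Nat.card ↥(H ⊓ Tt B) := by norm_num at hb4; omega
    have h4 : 2 * Nat.card (Dd B) < Nat.card T0 := by
      by_contra hcon
      push Not at hcon
      have h5 : Nat.card ↥(H ⊓ Tt B) * Nat.card (Dd B) ≤ (2 * Nat.card K) * Nat.card (Dd B) := by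
        rw [← hT0K]
        calc _ ≤ 2 * Nat.card (Dd B) * Nat.card K := Nat.mul_le_mul_right _ hcon
          _ = _ := by ring
      have := Nat.le_of_mul_le_mul_right h5 hposD
      omega
    obtain ⟨c, hc⟩ := Subgroup.card_dvd_of_le hDT0
    obtain ⟨e, he⟩ := Subgroup.card_dvd_of_le hT0T
    rw [hT8, hc, mul_comm 8, mul_assoc] at he
    have he' : 8 = c * e := Nat.eq_of_mul_eq_mul_left hposD he
    have hc2 : 2 < c := by
      by_contra hcon
      push Not at hcon
      have : Nat.card (Dd B) * c ≤ Nat.card (Dd B) * 2 := Nat.mul_le_mul_left _ hcon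
      omega
    have hc4 : c ≤ 4 := by
      by_contra hcon
      push Not at hcon
      have : Nat.card (Dd B) * 5 ≤ Nat.card (Dd B) * c := Nat.mul_le_mul_left _ hcon
      omega
    have hc' : c = 4 := by
      interval_cases c
      · omega
      · rfl
    rw [hT8, hc, hc']; ring
  have hstep2 : ∀ a ∈ Tt B, ∀ b ∈ Tt B, a ∉ T0 → b ∉ T0 → a * b ∈ T0 :=
    fun a ha b hb ha' hb' => two_step hT0T hTc ha hb ha' hb'
  have hstep : ∀ x ∈ Tt B, x ∉ T0 → t * x ∈ T0 := fun x hx hx' => hstep2 t h.tT x hx htT0 hx'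
  -- squares and commutators of `HD`
  have hMsq : ∀ x ∈ H ⊔ Dd B, x * x ∈ Dd B := fun x hx => sq_sup (hSqHK.trans hKD) (sq_mem hx)
  have hMcm : ∀ x ∈ H ⊔ Dd B, ∀ y ∈ H ⊔ Dd B, cm x y ∈ Dd B := fun x hx y hy =>
    sq_sup (hSqHK.trans hKD) (comm_mem hx hy)
  have hT0M : T0 ≤ H ⊔ Dd B := sup_le_sup_right inf_le_left _
  have hel : ∀ y ∈ Tt B, y * y ∈ Dd B := by
    intro y hy
    by_cases hy0 : y ∈ T0
    · exact hMsq y (hT0M hy0)
    · have h3 := hMsq _ (hT0M (hstep y hy hy0))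
      have h4 : cj (cm y t) y ∈ Dd B := h.D_conjT (h.comm_mem_D hy h.tT) hy
      have h5 : t * y * (t * y) = (y * y) * cj (cm y t) y := by
        rw [mul_sq, h.tt, one_mul]
      rw [h5] at h3
      have := (Dd B).mul_mem h3 ((Dd B).inv_mem h4)
      simpa using this
  have hS : ∀ x ∈ T0, x * x ∈ Sq (Dd B) := by
    intro x hx
    obtain ⟨y, hy, d, hd, rfl⟩ := Subgroup.mem_sup_of_normal_right.1 hx
    have h3 := h.D8 hel hd hy.2
    have h4 : cm d y ∈ Dd B := h.comm_mem_D (h.DT hd) hy.2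
    have h5 : y * d * (y * d) = (y * y) * ((d * d) * cm d y) := by
      calc y * d * (y * d) = (y * y) * cj d y * d := by unfold cj; group
        _ = (y * y) * (d * (cm d y * d)) := by rw [cj_eq]; group
        _ = (y * y) * (d * (d * cm d y)) := by rw [h.Dab _ h4 _ hd]
        _ = _ := by group
    rw [h5]
    exact (Sq (Dd B)).mul_mem (hSqHD (sq_mem hy.1)) ((Sq (Dd B)).mul_mem (sq_mem hd) h3)
  have hgM : g ∈ H ⊔ Dd B := (le_sup_left : H ≤ H ⊔ Dd B) hgH
  set w := cm t g with hw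
  have htg : g⁻¹ * t * g = t * w := by
    rw [hw]; unfold cm; group
  by_cases hwD : w ∈ Dd B
  · obtain ⟨y, hy, hye⟩ := h.base.2 w hwD
    obtain ⟨y', hy', hy'e⟩ : ∃ y' ∈ T0, y'⁻¹ * t * y' = t * w := by
      by_cases hy0 : y ∈ T0
      · exact ⟨y, hy0, hye⟩
      · refine ⟨t * y, hstep y hy hy0, ?_⟩
        rw [← hye]; group
    have hgT' : g * y'⁻¹ ∉ Tt B := by
      intro e
      apply hgT
      have := (Tt B).mul_mem e (hT0T hy')
      simpa using this
    have hgM' : g * y'⁻¹ ∈ H ⊔ Dd B := (H ⊔ Dd B).mul_mem hgM ((H ⊔ Dd B).inv_mem (hT0M hy'))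
    refine h.caseA hBD hT0T hDT0 hstep hS (g := g * y'⁻¹) hgT' (h.DT (hMsq _ hgM')) ?_ ?_
    · have h3 : g⁻¹ * t * g = y'⁻¹ * t * y' := by rw [htg, hy'e]
      calc g * y'⁻¹ * t = g * (y'⁻¹ * t * y') * y'⁻¹ := by group
        _ = g * (g⁻¹ * t * g) * y'⁻¹ := by rw [h3]
        _ = _ := by group
    · intro x hx
      exact hMcm x (hT0M hx) _ hgM'
  · have htg' : g⁻¹ * t * g ∈ Tt B := by
      have := hTn.conj_mem t h.tT g⁻¹
      simpa using this
    have hwT : w ∈ Tt B := by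
      have : w = t⁻¹ * (g⁻¹ * t * g) := by rw [htg]; group
      rw [this]; exact (Tt B).mul_mem ((Tt B).inv_mem h.tT) htg'
    have hgT0 : ∀ x ∈ T0, g * x * g⁻¹ ∈ T0 := by
      intro x hx
      obtain ⟨y, hy, d, hd, rfl⟩ := Subgroup.mem_sup_of_normal_right.1 hx
      have : g * (y * d) * g⁻¹ = (g * y * g⁻¹) * (g * d * g⁻¹) := by group
      rw [this]
      refine T0.mul_mem ((le_sup_left : H ⊓ Tt B ≤ T0) ⟨H.mul_mem (H.mul_mem hgH hy.1) (H.inv_mem hgH),
        hTn.conj_mem _ hy.2 g⟩) (hDT0 (hDn.conj_mem _ hd g))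
    have htg0 : g⁻¹ * t * g ∉ T0 := by
      intro e
      apply htT0
      have := hgT0 _ e
      have h3 : g * (g⁻¹ * t * g) * g⁻¹ = t := by group
      rwa [h3] at this
    have ht' : t⁻¹ = t := inv_eq_of_mul_eq_one_left h.tt
    have hwT0 : w ∈ T0 := by
      have : w = t * (g⁻¹ * t * g) := by rw [htg, ← mul_assoc, h.tt, one_mul]
      rw [this]; exact hstep _ htg' htg0
    have hinv : ∀ d ∈ Dd B, (g⁻¹ * t * g)⁻¹ * d * (g⁻¹ * t * g) = d⁻¹ := by
      intro d hd
      have h3 : g * d * g⁻¹ ∈ Dd B := hDn.conj_mem _ hd g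
      have h4 := h.inv h3
      unfold cj at h4
      calc (g⁻¹ * t * g)⁻¹ * d * (g⁻¹ * t * g) = g⁻¹ * (t⁻¹ * (g * d * g⁻¹) * t) * g := by group
        _ = g⁻¹ * (g * d * g⁻¹)⁻¹ * g := by rw [h4]
        _ = _ := by group
    have hcen : ∀ d ∈ Dd B, w * d = d * w := by
      intro d hd
      have h3 := h.inv hd
      have h4 := hinv _ ((Dd B).inv_mem hd)
      rw [inv_inv] at h4
      have h5 : w⁻¹ * d * w = d := by
        have : w⁻¹ * d * w = (g⁻¹ * t * g)⁻¹ * (t * d * t⁻¹) * (g⁻¹ * t * g) := by rw [htg]; group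
        rw [this]
        have h6 : t * d * t⁻¹ = d⁻¹ := by
          unfold cj at h3; rw [ht'] at h3 ⊢; exact h3
        rw [h6]; exact h4
      calc w * d = w * (w⁻¹ * d * w) := by rw [h5]
        _ = _ := by group
    have hgg : (g⁻¹ * t * g) * (g⁻¹ * t * g) = 1 := by
      calc (g⁻¹ * t * g) * (g⁻¹ * t * g) = g⁻¹ * (t * t) * g := by group
        _ = 1 := by rw [h.tt]; group
    have hwt : cj w t = w⁻¹ := by
      have h3 : w = t⁻¹ * (g⁻¹ * t * g) := by rw [htg]; group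
      rw [h3]; unfold cj
      rw [ht']
      have h4 : t * (t * (g⁻¹ * t * g)) * t = (t * t) * (g⁻¹ * t * g) * t := by group
      rw [h4, h.tt, one_mul, mul_inv_rev, ht', inv_eq_of_mul_eq_one_left hgg]
    obtain ⟨N, hN, hDN, hwN⟩ := h.caseB hBD hDn hDT0 htT0 hwT0 hwT hwD hcen hwt
      (hMsq _ (hT0M hwT0))
    obtain ⟨y, hy, d, hd, e⟩ := Subgroup.mem_sup_of_normal_right.1 hwT0
    have hyN : y ∈ N := by
      have : y = w * d⁻¹ := by rw [← e]; group
      rw [this]; exact N.mul_mem hwN (N.inv_mem (hDN hd))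
    have hyD : y ∉ Dd B := by
      intro hyD
      apply hwD
      rw [← e]; exact (Dd B).mul_mem hyD hd
    have hlt' : K < H ⊓ N := by
      refine lt_of_le_of_ne (le_inf hKH (hKD.trans hDN)) fun e' => hyD ?_
      have : y ∈ K := by rw [e']; exact ⟨hy.1, hyN⟩
      exact this.2
    have h3 := two_card_le hlt'
    have h4 := add (H := H) (K := H ⊓ N) inf_le_left (a := 2) (b := 2)
      (inf_Sq_ge inf_le_left (hN _ inf_le_right)) (by
        have := card_sub (le_sup_left : H ⊓ N ≤ (H ⊓ N) ⊔ Sq H)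
        norm_num; omega)
    norm_num at h4
    omega

end Ta

end H87.SC3
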