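import Mathlib
import Cfsg.Prelude
import Cfsg.Agent.Lib.H87.Hr.SC6

set_option autoImplicit false
set_option maxHeartbeats 400000

/-! Two general lemmas. -/

namespace H87.SC7

open Subgroup H87.MW1 H87.MW2 H87.MW3 H87.MW4 H87.MW5 H87.MW7 H87.MW8 H87.SC1 H87.SC2 H87.SC3

variable {G : Type*} [Group G]

/-- An involution acting on an abelian 2-group with at most two fixed points. -/
theorem LA {X : Subgroup G} (hZ : Z2 X) (hab : ∀ x ∈ X, ∀ y ∈ X, x * y = y * x) {τ : G}
    (hX : ∀ x ∈ X, cj x τ ∈ X) (hττ : ∀ x ∈ X, cj (cj x τ) τ = x) {c : G}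
    (hC : ∀ x ∈ X, cj x τ = x → x = 1 ∨ x = c) {b : G} (hb : b ∈ X) (hbb : b * b = 1)
    (hbτ : cj b τ ≠ b) : ∀ x ∈ X, x = 1 ∨ x = c ∨ x = b ∨ x = b * c := by
  have hN : ∀ x ∈ X, x * cj x τ = 1 ∨ x * cj x τ = c := by
    intro x hx
    apply hC _ (X.mul_mem hx (hX x hx))
    rw [cj_mul, hττ x hx]; exact hab _ (hX x hx) _ hx
  have hbc : b * cj b τ = c := by
    rcases hN b hb with e | e
    · exfalso; apply hbτ
      have : cj b τ = b⁻¹ := (inv_eq_of_mul_eq_one_right e).symm
      rw [this]; exact inv_eq_of_mul_eq_one_left hbb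
    · exact e
  have hbc' : cj b τ = b * c := by rw [← hbc, ← mul_assoc, hbb, one_mul]
  have hcX : c ∈ X := by rw [← hbc]; exact X.mul_mem hb (hX b hb)
  have hbτ2 : cj b τ * cj b τ = 1 := by rw [← cj_mul, hbb, cj_one]
  have hcc : c * c = 1 := by
    rw [← hbc]
    calc b * cj b τ * (b * cj b τ) = b * (cj b τ * b) * cj b τ := by group
      _ = b * (b * cj b τ) * cj b τ := by rw [hab _ (hX b hb) _ hb]
      _ = (b * b) * (cj b τ * cj b τ) := by group
      _ = 1 := by rw [hbb, hbτ2, one_mul]
  have hc1 : c ≠ 1 := by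
    intro e; apply hbτ; rw [hbc', e, mul_one]
  -- no element of order four
  have h4 : ∀ y ∈ X, (y * y) * (y * y) = 1 → y * y = 1 := by
    intro y hy hyy
    by_contra hne
    have h2 : cj (y * y) τ = y * y := by
      have h3 : (y * cj y τ) * (y * cj y τ) = 1 := by
        rcases hN y hy with e | e
        · rw [e, one_mul]
        · rw [e, hcc]
      have h5 : (y * y) * cj (y * y) τ = 1 := by
        rw [cj_mul]
        calc (y * y) * (cj y τ * cj y τ) = y * (y * cj y τ) * cj y τ := by group
          _ = y * (cj y τ * y) * cj y τ := by rw [hab _ hy _ (hX y hy)]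
          _ = (y * cj y τ) * (y * cj y τ) := by group
          _ = 1 := h3
      calc cj (y * y) τ = (y * y)⁻¹ := (inv_eq_of_mul_eq_one_right h5).symm
        _ = y * y := inv_eq_of_mul_eq_one_left hyy
    have hyc : y * y = c := (hC _ (X.mul_mem hy hy) h2).resolve_left hne
    have hyi : cj y τ = y⁻¹ := by
      rcases hN y hy with e | e
      · exact (inv_eq_of_mul_eq_one_right e).symm
      · exfalso
        have h5 : cj y τ = y := by
          rw [← hyc] at e
          exact mul_left_cancel e
        rcases hC y hy h5 with e1 | e1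
        · rw [e1, one_mul] at hne; exact hne rfl
        · rw [e1, hcc] at hne; exact hne rfl
    have h6 : cj (y * b) τ = y * b := by
      rw [cj_mul, hyi, hbc', hab _ hb _ hcX, ← hyc]; group
    have h7 : (y * b) * (y * b) = c := by
      calc (y * b) * (y * b) = y * (b * y) * b := by group
        _ = y * (y * b) * b := by rw [hab _ hb _ hy]
        _ = (y * y) * (b * b) := by group
        _ = c := by rw [hbb, mul_one, hyc]
    rcases hC _ (X.mul_mem hy hb) h6 with e1 | e1
    · rw [e1, one_mul] at h7; exact hc1 h7.symm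
    · rw [e1, hcc] at h7; exact hc1 h7.symm
  have hall : ∀ x ∈ X, x * x = 1 := by
    intro x hx
    by_contra hne
    have hex := hZ.1 x hx
    classical
    have hmin := Nat.find_spec hex
    have h1 : 1 < Nat.find hex := by
      by_contra hcon
      push Not at hcon
      apply hne
      interval_cases h : Nat.find hex
      · simp at hmin; rw [hmin, one_mul]
      · rw [pow_one, pow_two] at hmin; exact hmin
    obtain ⟨m, hm⟩ : ∃ m, Nat.find hex = m + 1 + 1 := ⟨Nat.find hex - 2, by omega⟩
    have h2 : x ^ (2 ^ (m + 1)) ≠ 1 := Nat.find_min hex (by omega)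
    have h3 := h4 (x ^ (2 ^ m)) (X.pow_mem hx _)
    have e1 : x ^ (2 ^ m) * x ^ (2 ^ m) = x ^ (2 ^ (m + 1)) := by
      rw [← pow_two, ← pow_mul, ← pow_succ]
    rw [e1] at h3
    apply h2
    apply h3
    rw [← pow_two, ← pow_mul, ← pow_succ, ← hm]; exact hmin
  intro x hx
  rcases hN x hx with e | e
  · have : cj x τ = x := by
      calc cj x τ = x⁻¹ := (inv_eq_of_mul_eq_one_right e).symm
        _ = x := inv_eq_of_mul_eq_one_left (hall x hx)
    rcases hC x hx this with e1 | e1
    · exact Or.inl e1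
    · exact Or.inr (Or.inl e1)
  · have h5 : cj x τ = x * c := by rw [← e, ← mul_assoc, hall x hx, one_mul]
    have h6 : cj (x * b) τ = x * b := by
      rw [cj_mul, h5, hbc']
      calc x * c * (b * c) = x * (c * b) * c := by group
        _ = x * (b * c) * c := by rw [hab _ hcX _ hb]
        _ = x * b * (c * c) := by group
        _ = _ := by rw [hcc, mul_one]
    have hxb : x = (x * b) * b := by rw [mul_assoc, hbb, mul_one]
    rcases hC _ (X.mul_mem hx hb) h6 with e1 | e1
    · right; right; left; rw [hxb, e1, one_mul]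
    · right; right; right; rw [hxb, e1]; exact hab _ hcX _ hb

theorem LA_card [Finite G] {X : Subgroup G} (hZ : Z2 X) (hab : ∀ x ∈ X, ∀ y ∈ X, x * y = y * x) {τ : G}
    (hX : ∀ x ∈ X, cj x τ ∈ X) (hττ : ∀ x ∈ X, cj (cj x τ) τ = x) {c : G}
    (hC : ∀ x ∈ X, cj x τ = x → x = 1 ∨ x = c) {b : G} (hb : b ∈ X) (hbb : b * b = 1)
    (hbτ : cj b τ ≠ b) : Nat.card X ≤ 4 := by
  classical
  have h := LA hZ hab hX hττ hC hb hbb hbτ
  have h1 := card_le_fiber (H := X) (K := (⊥ : Subgroup G)) (fun x : G => x)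
    ({1, c, b, b * c} : Finset G)
    (by intro x hx; simpa using h x hx) (by
      intro x _ y _ e
      have e' : x = y := e
      subst e'; simp)
  have h2 : ({1, c, b, b * c} : Finset G).card ≤ 4 := Finset.card_le_four
  rw [Subgroup.card_bot, mul_one] at h1
  omega

theorem card_le_cm [Finite G] {K : Subgroup G} (hab : ∀ x ∈ K, ∀ y ∈ K, x * y = y * x) {h : G}
    (hK : ∀ x ∈ K, cj x h ∈ K) {F S : Subgroup G} (hF : ∀ x ∈ K, cj x h = x → x ∈ F)
    (hS : ∀ x ∈ K, cm x h ∈ S) : Nat.card K ≤ Nat.card F * Nat.card S := by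
  classical
  haveI := Fintype.ofFinite S
  have h1 := card_le_fiber (H := K) (K := F) (fun x : G => cm x h) ((S : Set G).toFinset)
    (by intro x hx; simpa using hS x hx) (by
      intro x hx y hy e
      have e' : cm x h = cm y h := e
      apply hF _ (K.mul_mem (K.inv_mem hx) hy)
      rw [cj_mul, cj_inv, cj_eq x, cj_eq y, e']
      have hm : cm y h ∈ K := by rw [cm_eq]; exact K.mul_mem (K.inv_mem hy) (hK y hy)
      calc (x * cm y h)⁻¹ * (y * cm y h) = (x * cm y h)⁻¹ * (cm y h * y) := by
            rw [hab _ hy _ hm]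
        _ = (cm y h * x)⁻¹ * (cm y h * y) := by rw [hab _ hx _ hm]
        _ = _ := by group)
  have h2 : ((S : Set G).toFinset).card = Nat.card S := by
    rw [Set.toFinset_card, Nat.card_eq_fintype_card]; rfl
  rw [h2, mul_comm] at h1
  exact h1

end H87.SC7
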