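import Mathlib
import Cfsg.Prelude
import Cfsg.Agent.Lib.H87.Hr.SC7

set_option autoImplicit false
set_option maxHeartbeats 400000

/-! The case `B` not normal. -/

namespace H87.SC8

open Subgroup H87.MW1 H87.MW2 H87.MW3 H87.MW4 H87.MW5 H87.MW7 H87.MW8 H87.SC1 H87.SC2 H87.SC3 H87.SC7

variable {G : Type*} [Group G]

theorem mem_norm_of [Finite G] {B : Subgroup G} {g : G} (h : ∀ b ∈ B, g * b * g⁻¹ ∈ B) :
    g ∈ normalizer (B : Set G) := by
  have h1 : B.map (MulAut.conj g).toMonoidHom = B := by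
    refine Subgroup.eq_of_le_of_card_ge ?_ ?_
    · rintro _ ⟨b, hb, rfl⟩
      simpa [MulAut.conj_apply] using h b hb
    · rw [Nat.card_congr (B.equivMapOfInjective (MulAut.conj g).toMonoidHom
        (MulAut.conj g).injective).symm.toEquiv]
  rw [mem_normalizer_iff]
  intro x
  refine ⟨h x, fun hx => ?_⟩
  have hx' : g * x * g⁻¹ ∈ B.map (MulAut.conj g).toMonoidHom := by rw [h1]; exact hx
  obtain ⟨b, hb, e⟩ := hx'
  have e' : g * b * g⁻¹ = g * x * g⁻¹ := by simpa [MulAut.conj_apply] using e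
  have : b = x := mul_left_cancel (mul_right_cancel e')
  rw [← this]; exact hb

theorem exists_c [Finite G] {P : Subgroup G} (h : Nat.card P ≤ 2) : ∃ c ∈ P, ∀ x ∈ P, x = 1 ∨ x = c := by
  classical
  by_cases hP : ∃ c ∈ P, c ≠ 1
  · obtain ⟨c, hc, hc1⟩ := hP
    refine ⟨c, hc, ?_⟩
    intro x hx
    by_contra hcon
    push Not at hcon
    haveI := Fintype.ofFinite P
    have h1 : ({⟨x, hx⟩, ⟨c, hc⟩, 1} : Finset P).card = 3 := by
      rw [Finset.card_insert_of_notMem, Finset.card_insert_of_notMem, Finset.card_singleton]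
      · simp only [Finset.mem_singleton]
        exact fun e => hc1 (congrArg Subtype.val e)
      · simp only [Finset.mem_insert, Finset.mem_singleton, not_or]
        exact ⟨fun e => hcon.2 (congrArg Subtype.val e), fun e => hcon.1 (congrArg Subtype.val e)⟩
    have h2 := Finset.card_le_univ ({⟨x, hx⟩, ⟨c, hc⟩, 1} : Finset P)
    rw [h1, ← Nat.card_eq_fintype_card] at h2
    omega
  · push Not at hP
    exact ⟨1, P.one_mem, fun x hx => Or.inl (hP x hx)⟩

theorem com_of_cj {x y : G} (h : cj x y = x) : x * y = y * x := by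
  unfold cj at h
  calc x * y = y * (y⁻¹ * x * y) := by group
    _ = _ := by rw [h]

theorem cj_of_com {x y : G} (h : x * y = y * x) : cj x y = x := cj_of_comm h

theorem RK_sub [Finite G] {C D : Subgroup G} (hDC : D ≤ C) (hCab : ∀ x ∈ C, ∀ y ∈ C, x * y = y * x)
    (h4 : Nat.card C = 4 * Nat.card D) {r : ℕ} (hD : RK r D) : RK (r + 2) C := by
  intro H hH
  refine add (K := H ⊓ D) inf_le_left (inf_Sq_ge inf_le_left (hD _ inf_le_right)) ?_
  have h1 := card_mul_le hH hDC (by
    intro x hx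
    rw [mem_normalizer_iff]
    intro y
    constructor
    · intro hy
      rw [hCab x (hH hx) y (hDC hy)]; simpa using hy
    · intro hy
      have h2 : x * y * x⁻¹ * x = x * (x * y * x⁻¹) := hCab _ (hDC hy) _ (hH hx)
      have h3 : y = x⁻¹ * (x * y * x⁻¹ * x) := by group
      rw [h2] at h3
      have h5 : y = x * y * x⁻¹ := by
        calc y = x⁻¹ * (x * (x * y * x⁻¹)) := h3
          _ = _ := by group
      rw [h5]; exact hy)
  rw [h4] at h1
  have h2 : Nat.card H * Nat.card D ≤ (4 * Nat.card ↥(H ⊓ D)) * Nat.card D := by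
    calc _ ≤ _ := h1
      _ = _ := by ring
  have h3 := Nat.le_of_mul_le_mul_right h2 Nat.card_pos
  have h5 := card_sub (le_sup_left : H ⊓ D ≤ (H ⊓ D) ⊔ Sq H)
  norm_num
  omega

/-- the structure of `C` -/
theorem Cab [Finite G] {E B C : Subgroup G} {t g t2 c : G} (hEn : E.Normal)
    (hE8 : Nat.card E = 8) (hE2 : ∀ x ∈ E, x * x = 1)
    (h : Ta B t) (hEC : E ≤ C) (hCE : ∀ x ∈ C, ∀ e ∈ E, e * x = x * e)
    (hDC : Dd B ≤ C) (h4 : Nat.card C = 4 * Nat.card (Dd B)) (ht2 : t2 * t2 = 1)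
    (hnT : t2 ∈ normalizer (Tt B : Set G)) (hC2 : ∀ x ∈ C, x * t2 = t2 * x → g * x * g⁻¹ ∈ B)
    (hgN : g ∉ normalizer (B : Set G)) (hc : ∀ x ∈ B, g * x * g⁻¹ ∈ B → x = 1 ∨ x = c) (hBE : B ≤ E) :
    (∀ x ∈ C, ∀ y ∈ C, x * y = y * x) ∧ RK 4 C ∧ (Nat.card C ≤ 16 ∨ RK 3 C) := by
  classical
  have hDab := h.Dab
  have ht2' : t2⁻¹ = t2 := inv_eq_of_mul_eq_one_left ht2
  by_cases hBD : B ≤ Dd B
  · obtain ⟨b, hb, hbt⟩ : ∃ b ∈ B, cj b t2 ≠ b := by
      by_contra hcon
      push Not at hcon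
      apply hgN
      apply mem_norm_of
      intro b hb
      exact hC2 b (hEC (hBE hb)) (com_of_cj (hcon b hb))
    have hD4 : Nat.card (Dd B) ≤ 4 := by
      refine LA_card h.DZ2 hDab (τ := t2) (fun x hx => h.D_conj hx hnT) ?_ (c := c) ?_ (hBD hb)
        (h.B2 b hb) hbt
      · intro x _; rw [cj_cj, ht2]; unfold cj; group
      · intro x hx hxt
        have h1 := hC2 x (hDC hx) (com_of_cj hxt)
        have h2 := h.B2 _ h1
        have h3 : x * x = 1 := by
          calc x * x = g⁻¹ * (g * x * g⁻¹ * (g * x * g⁻¹)) * g := by group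
            _ = 1 := by rw [h2]; group
        exact hc x (h.D1 hx h3) h1
    have hC16 : Nat.card C ≤ 16 := by omega
    have hab : ∀ x ∈ C, ∀ y ∈ C, x * y = y * x := by
      by_cases hC8 : Nat.card C ≤ 8
      · have : E = C := Subgroup.eq_of_le_of_card_ge hEC (by omega)
        intro x hx y hy
        rw [← this] at hx
        exact hCE y hy x hx
      · obtain ⟨k, hk⟩ := Subgroup.card_dvd_of_le hEC
        rw [hE8] at hk
        have hk2 : k = 2 := by omega
        have hc2 : Nat.card C = Nat.card E * 2 := by rw [hk, hk2, hE8]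
        intro x hx y hy
        by_cases hxE : x ∈ E
        · exact hCE y hy x hxE
        by_cases hyE : y ∈ E
        · exact (hCE x hx y hyE).symm
        have h1 := two_step hEC hc2 hx hy hxE hyE
        have h2 := hCE x hx _ h1
        have h3 : x * (x * y) = x * (y * x) := by rw [← h2]; group
        exact mul_left_cancel h3
    exact ⟨hab, RK_sub hDC hab h4 h.RKD, Or.inl hC16⟩
  · have hP : Nat.card ↥(Dd B ⊓ B) ≤ 2 := by
      have hne : Dd B ⊓ B ≠ B := fun e => hBD (inf_eq_right.1 e)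
      have := two_card_le (lt_of_le_of_ne (inf_le_right : Dd B ⊓ B ≤ B) hne)
      rw [h.B4] at this; omega
    have hRD : RK 1 (Dd B) := by
      intro K hK
      refine (card_le_of_Om (h.DZ2.sub hK)).trans (Nat.mul_le_mul_right _ ?_)
      refine le_trans ?_ hP
      refine Nat.card_le_card_of_injective (fun x : OmS K 1 => (⟨x, hK x.2.1, h.D1 (hK x.2.1) (by
        have := x.2.2; rwa [pow_one, pow_two] at this)⟩ : ↥(Dd B ⊓ B))) ?_
      intro x y hxy
      exact Subtype.ext (congrArg (fun q : ↥(Dd B ⊓ B) => (q : G)) hxy)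
    have hcs := card_sup_D (H := Dd B) (D := E)
    have hDE : Nat.card ↥(Dd B ⊓ E) ≤ 2 := by
      have hle : Dd B ⊓ E ≤ Dd B ⊓ B := fun x hx => ⟨hx.1, h.D1 hx.1 (hE2 x hx.2)⟩
      exact (card_sub hle).trans hP
    have hCe : Dd B ⊔ E = C := by
      refine Subgroup.eq_of_le_of_card_ge (sup_le hDC hEC) ?_
      rw [hE8] at hcs
      have h1 : Nat.card (Dd B) * 8 ≤ Nat.card ↥(Dd B ⊔ E) * 2 := by
        rw [← hcs]; exact Nat.mul_le_mul_left _ hDE
      omega
    have hab : ∀ x ∈ C, ∀ y ∈ C, x * y = y * x := by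
      intro x hx y hy
      have hx' := hx
      have hy' := hy
      rw [← hCe] at hx' hy'
      obtain ⟨d, hd, e, he, rfl⟩ := Subgroup.mem_sup_of_normal_right.1 hx'
      obtain ⟨d', hd', e', he', rfl⟩ := Subgroup.mem_sup_of_normal_right.1 hy'
      have k1 := hCE (d' * e') hy e he
      have k2 := hCE d (hDC hd) e' he'
      calc d * e * (d' * e') = d * (e * (d' * e')) := by group
        _ = d * (d' * e' * e) := by rw [k1]
        _ = (d * d') * e' * e := by group
        _ = (d' * d) * e' * e := by rw [hDab _ hd _ hd']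
        _ = d' * (d * e') * e := by group
        _ = d' * (e' * d) * e := by rw [k2]
        _ = _ := by group
    exact ⟨hab, (RK_sub hDC hab h4 hRD).le (by norm_num), Or.inr (RK_sub hDC hab h4 hRD)⟩

end H87.SC8
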