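import Mathlib
import Cfsg.Prelude
import Cfsg.Agent.Lib.H87.Hr.SC8

set_option autoImplicit false
set_option maxHeartbeats 400000

/-! The case `B` not normal: end. -/

namespace H87.SC9

open Subgroup H87.MW1 H87.MW2 H87.MW3 H87.MW4 H87.MW5 H87.MW7 H87.MW8 H87.SC1 H87.SC2 H87.SC3 H87.SC7
  H87.SC8

variable {G : Type*} [Group G]

theorem main2b [Finite G] (hG : IsPGroup 2 G) {E B : Subgroup G} {t : G} (hEn : E.Normal)
    (hEab : ∀ x ∈ E, ∀ y ∈ E, x * y = y * x) (hE2 : ∀ x ∈ E, x * x = 1) (hE8 : Nat.card E = 8)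
    (h : Ta B t) (hBE : B ≤ E) (htC : t ∉ centralizer (E : Set G)) (hBn : ¬ B.Normal) :
    RK 4 (⊤ : Subgroup G) := by
  classical
  haveI : Fact (Nat.Prime 2) := ⟨Nat.prime_two⟩
  obtain ⟨hC8, hC8'⟩ := FL hG hEn hEab hE2 hE8
  set C := centralizer (E : Set G) with hC
  haveI hCn : C.Normal := by haveI := hEn; rw [hC]; infer_instance
  have hEC : E ≤ C := fun x hx => mem_centralizer_iff.2 fun y hy => hEab y hy x hx
  have hCE : ∀ x ∈ C, ∀ e ∈ E, e * x = x * e := fun x hx e he => mem_centralizer_iff.1 hx e he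
  have hCT : C ≤ Tt B := centralizer_le hBE
  have hEt : ∀ x ∈ C, x * t = t * x → x ∈ B := by
    intro x hx hxt
    rcases h.cent x (fun b hb => hCE x hx b (hBE hb)) hxt with e | e
    · exact e
    · exfalso; apply htC
      have : t = (t * x) * x⁻¹ := by group
      rw [this]; exact C.mul_mem (hEC (hBE e)) (C.inv_mem hx)
  have key : ∀ g, g⁻¹ * t * g ∈ Tt B → ∀ b ∈ B, g * b * g⁻¹ ∈ B := by
    intro g h1 b hb
    apply hEt _ (hEC (hEn.conj_mem b (hBE hb) g))
    have h2 : b * (g⁻¹ * t * g) = (g⁻¹ * t * g) * b := mem_centralizer_iff.1 h1 b hb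
    calc g * b * g⁻¹ * t = g * (b * (g⁻¹ * t * g)) * g⁻¹ := by group
      _ = g * ((g⁻¹ * t * g) * b) * g⁻¹ := by rw [h2]
      _ = _ := by group
  have hTn : ¬ (Tt B).Normal := by
    intro hTn
    exact hBn ⟨fun b hb g => key g (by simpa using hTn.conj_mem t h.tT g⁻¹) b hb⟩
  -- indices
  have hTC2 : 2 * Nat.card C ≤ Nat.card (Tt B) :=
    two_card_le (lt_of_le_of_ne hCT fun e => htC (by rw [e]; exact h.tT))
  have hGT : 4 * Nat.card (Tt B) ≤ Nat.card G := by
    have h4 : 4 ≤ (Tt B).index := by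
      have h2 : 2 < (Tt B).index := by
        by_contra hcon
        push Not at hcon
        apply hTn
        have h0 : (Tt B).index ≠ 0 := index_ne_zero_of_finite
        rcases (by omega : (Tt B).index = 1 ∨ (Tt B).index = 2) with e | e
        · rw [index_eq_one.1 e]; infer_instance
        · exact normal_of_index_eq_two e
      obtain ⟨n, hn⟩ := hG.index (Tt B)
      rw [hn] at h2 ⊢
      have : 2 ≤ n := by
        by_contra hcon
        push Not at hcon
        interval_cases n <;> omega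
      calc 4 = 2 ^ 2 := by norm_num
        _ ≤ 2 ^ n := Nat.pow_le_pow_right (by norm_num) this
    rw [← card_mul_index (Tt B), mul_comm]
    exact Nat.mul_le_mul_left _ h4
  have hGC : Nat.card G ≤ 8 * Nat.card C := by
    rw [← card_mul_index C, mul_comm]; exact Nat.mul_le_mul_right _ hC8
  have hposC : 0 < Nat.card C := Nat.card_pos
  have hTc : Nat.card (Tt B) = Nat.card C * 2 := by omega
  have hGc : Nat.card G = 8 * Nat.card C := by omega
  set N := normalizer (B : Set G) with hN
  have hTN : normalizer (Tt B : Set G) ≤ N := by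
    intro g hg
    apply mem_norm_of
    apply key
    have := (mem_normalizer_iff.1 ((normalizer _).inv_mem hg) t).1 h.tT
    simpa using this
  have hTlt : Tt B < N := by
    refine lt_of_lt_of_le ?_ hTN
    haveI : Group.IsNilpotent G := hG.isNilpotent
    refine normalizerCondition_of_isNilpotent _ (lt_of_le_of_ne le_top ?_)
    intro e; exact hTn (by rw [e]; infer_instance)
  have hNtop : N ≠ ⊤ := by
    intro e; exact hBn (Subgroup.normalizer_eq_top_iff.1 e)
  have hN2 := two_card_le hTlt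
  have hN2' := two_card_le (lt_of_le_of_ne le_top hNtop)
  rw [Nat.card_congr Subgroup.topEquiv.toEquiv] at hN2'
  have hNc : Nat.card N = Nat.card (Tt B) * 2 := by omega
  have hNi : N.index = 2 := by
    have := card_mul_index N
    have h1 : Nat.card N * N.index = Nat.card N * 2 := by omega
    exact Nat.eq_of_mul_eq_mul_left Nat.card_pos h1
  haveI hNn : N.Normal := normal_of_index_eq_two hNi
  obtain ⟨g, hg⟩ : ∃ g, g ∉ N := by
    by_contra hcon
    push Not at hcon
    exact hNtop (eq_top_iff.2 fun x _ => hcon x)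
  have hstepC : ∀ a ∈ Tt B, ∀ b ∈ Tt B, a ∉ C → b ∉ C → a * b ∈ C :=
    fun a ha b hb ha' hb' => two_step hCT hTc ha hb ha' hb'
  have hstepT : ∀ a ∈ N, ∀ b ∈ N, a ∉ Tt B → b ∉ Tt B → a * b ∈ Tt B :=
    fun a ha b hb ha' hb' => two_step hTlt.le hNc ha hb ha' hb'
  have hNT : N ≤ normalizer (Tt B : Set G) := by
    have h1 : ∀ n ∈ N, ∀ x ∈ Tt B, n * x * n⁻¹ ∈ Tt B := by
      intro n hn x hx
      rw [mem_centralizer_iff]
      intro b hb
      have h2 : n⁻¹ * b * n ∈ B := by
        have := (mem_normalizer_iff.1 (N.inv_mem hn) b).1 hb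
        simpa using this
      have h3 := mem_centralizer_iff.1 hx _ h2
      calc b * (n * x * n⁻¹) = n * ((n⁻¹ * b * n) * x) * n⁻¹ := by group
        _ = n * (x * (n⁻¹ * b * n)) * n⁻¹ := by rw [h3]
        _ = _ := by group
    intro n hn
    exact mem_norm_of (h1 n hn)
  -- t2
  obtain ⟨t2, ht2def⟩ : ∃ t2, t2 = g⁻¹ * t * g := ⟨_, rfl⟩
  have htN : t ∈ N := hTlt.le h.tT
  have ht2N : t2 ∈ N := by rw [ht2def]; simpa using hNn.conj_mem t htN g⁻¹
  have ht2C : t2 ∉ C := by
    intro e
    apply htC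
    have := hCn.conj_mem _ e g
    have e2 : g * t2 * g⁻¹ = t := by rw [ht2def]; group
    rwa [e2] at this
  have ht22 : t2 * t2 = 1 := by
    rw [ht2def]
    calc g⁻¹ * t * g * (g⁻¹ * t * g) = g⁻¹ * (t * t) * g := by group
      _ = 1 := by rw [h.tt]; group
  have ht2' : t2⁻¹ = t2 := inv_eq_of_mul_eq_one_left ht22
  have ht' : t⁻¹ = t := inv_eq_of_mul_eq_one_left h.tt
  have hC2 : ∀ x ∈ C, x * t2 = t2 * x → g * x * g⁻¹ ∈ B := by
    intro x hx hxt
    apply hEt _ (hCn.conj_mem x hx g)
    calc g * x * g⁻¹ * t = g * (x * t2) * g⁻¹ := by rw [ht2def]; group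
      _ = g * (t2 * x) * g⁻¹ := by rw [hxt]
      _ = _ := by rw [ht2def]; group
  have ht2T : t2 ∉ Tt B := by
    intro e
    apply hg
    apply mem_norm_of
    exact key g (by rw [← ht2def]; exact e)
  -- common fixed points
  obtain ⟨c, hc⟩ : ∃ c, ∀ x ∈ B, g * x * g⁻¹ ∈ B → x = 1 ∨ x = c := by
    have hlt : B ⊓ B.comap (MulAut.conj g).toMonoidHom < B := by
      refine lt_of_le_of_ne inf_le_left fun e => hg ?_
      apply mem_norm_of
      intro b hb
      rw [← e] at hb
      simpa [MulAut.conj_apply] using hb.2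
    have h2 := two_card_le hlt
    rw [h.B4] at h2
    obtain ⟨c, -, hc⟩ := exists_c (P := B ⊓ B.comap (MulAut.conj g).toMonoidHom) (by omega)
    exact ⟨c, fun x hx hx' => hc x ⟨hx, by simpa [MulAut.conj_apply] using hx'⟩⟩
  -- D
  have hSqT : Sq (Tt B) ≤ C := by
    refine Sq_le_of ?_
    intro x hx
    by_cases hxC : x ∈ C
    · exact C.mul_mem hxC hxC
    · exact hstepC x hx x hx hxC hxC
  have hDC : Dd B ≤ C := (comm_le_Sq _).trans hSqT
  have h4 : Nat.card C = 4 * Nat.card (Dd B) := by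
    have := h.base.1
    omega
  obtain ⟨hCab, hR4, hR3⟩ := Cab (t2 := t2) (g := g) (c := c) hEn hE8 hE2 h hEC hCE hDC h4 ht22
    (hNT ht2N) hC2 hg hc hBE
  have hτC : (t * t2) * (t * t2) ∈ C := by
    have h1 : t2⁻¹ * t * t2 ∈ Tt B := by
      have := (mem_normalizer_iff.1 (hNT (N.inv_mem ht2N)) t).1 h.tT
      simpa using this
    have h2 : t2⁻¹ * t * t2 ∉ C := by
      intro e
      apply htC
      have := hCn.conj_mem _ e t2
      have e2 : t2 * (t2⁻¹ * t * t2) * t2⁻¹ = t := by group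
      rwa [e2] at this
    have h3 := hstepC t h.tT _ h1 htC h2
    have e3 : (t * t2) * (t * t2) = t * (t2⁻¹ * t * t2) := by rw [ht2']; group
    rw [e3]; exact h3
  -- the final argument
  intro H _
  have hCc : ∀ x ∈ C, ∀ y : G, cj x y ∈ C := fun x hx y => conj_mem' hx y
  set K := H ⊓ C with hK
  have hKH : K ≤ H := inf_le_left
  have hKC : K ≤ C := inf_le_right
  have hKab : ∀ x ∈ K, ∀ y ∈ K, x * y = y * x := fun x hx y hy => hCab x (hKC hx) y (hKC hy)
  have hKcj : ∀ y ∈ H, ∀ x ∈ K, cj x y ∈ K := by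
    intro y hy x hx
    refine ⟨?_, hCc x (hKC hx) y⟩
    unfold cj
    exact H.mul_mem (H.mul_mem (H.inv_mem hy) (hKH hx)) hy
  have hKcm : ∀ y ∈ H, ∀ x ∈ K, cm x y ∈ K ⊓ Sq H := by
    intro y hy x hx
    refine ⟨?_, comm_mem (hKH hx) hy⟩
    rw [cm_eq]; exact K.mul_mem (K.inv_mem hx) (hKcj y hy x hx)
  have hbb := hb_of hC8 hC8' hG H
  rw [← hK] at hbb
  have suff : Nat.card K ≤ 2 ^ 2 * Nat.card ↥(K ⊓ Sq H) → Nat.card H ≤ 2 ^ 4 * Nat.card (Sq H) :=
    fun ha => add hKH ha hbb
  -- elements of `K` commuting with `h` where `s h ∈ C`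
  have hcomm : ∀ s y : G, s * y ∈ C → ∀ x ∈ C, cj x y = x → x * s = s * x := by
    intro s y hsy x hx hxy
    have h1 := com_of_cj hxy
    have h2 := hCab x hx _ hsy
    have h3 : x * s * y = s * x * y := by
      calc x * s * y = x * (s * y) := by group
        _ = s * y * x := h2
        _ = s * (y * x) := by group
        _ = s * (x * y) := by rw [h1]
        _ = _ := by group
    exact mul_right_cancel h3
  by_cases hα1 : ∃ y ∈ H, t * y ∈ C
  · obtain ⟨y, hy, hty⟩ := hα1
    apply suff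
    have := card_le_cm hKab (hKcj y hy) (F := B) (S := K ⊓ Sq H)
      (fun x hx hxy => hEt x (hKC hx) (hcomm t y hty x (hKC hx) hxy)) (hKcm y hy)
    rw [h.B4] at this
    norm_num; exact this
  by_cases hα2 : ∃ y ∈ H, t2 * y ∈ C
  · obtain ⟨y, hy, hty⟩ := hα2
    apply suff
    have h5 : Nat.card (B.map (MulAut.conj g⁻¹).toMonoidHom) = 4 := by
      rw [← h.B4]
      exact Nat.card_congr (B.equivMapOfInjective (MulAut.conj g⁻¹).toMonoidHom
        (MulAut.conj g⁻¹).injective).symm.toEquiv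
    have := card_le_cm hKab (hKcj y hy) (F := B.map (MulAut.conj g⁻¹).toMonoidHom) (S := K ⊓ Sq H)
      (fun x hx hxy => by
        refine ⟨g * x * g⁻¹, hC2 x (hKC hx) (hcomm t2 y hty x (hKC hx) hxy), ?_⟩
        simp [MulAut.conj_apply, mul_assoc]) (hKcm y hy)
    rw [h5] at this
    norm_num; exact this
  by_cases hβ : ∃ y ∈ H, (t * t2) * y ∈ C
  · obtain ⟨y, hy, hty⟩ := hβ
    apply suff
    set X := C ⊓ centralizer ({t * t2} : Set G) with hX
    have hXm : ∀ x, x ∈ X ↔ x ∈ C ∧ x * (t * t2) = (t * t2) * x := by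
      intro x
      rw [hX, Subgroup.mem_inf, mem_centralizer_singleton_iff]
    have hX4 : Nat.card X ≤ 4 := by
      have hXt : ∀ x ∈ X, cj x t = x → x = 1 ∨ x = c := by
        intro x hx hxt
        rw [hXm] at hx
        have h1 := com_of_cj hxt
        have h2 : x * t2 = t2 * x := by
          have h3 : t * (x * t2) = t * (t2 * x) := by
            calc t * (x * t2) = (t * x) * t2 := by group
              _ = x * (t * t2) := by rw [← h1]; group
              _ = (t * t2) * x := hx.2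
              _ = _ := by group
          exact mul_left_cancel h3
        exact hc x (hEt x hx.1 h1) (hC2 x hx.1 h2)
      -- existence of `b`
      obtain ⟨b, hb, hbt⟩ : ∃ b ∈ X ⊓ E, cj b t ≠ b := by
        by_contra hcon
        push Not at hcon
        have hXE : Nat.card ↥(X ⊓ E) ≤ 2 := by
          have h1 := card_le_fiber (H := X ⊓ E) (K := (⊥ : Subgroup G)) (fun x : G => x)
            ({1, c} : Finset G) (by
              intro x hx
              simpa using hXt x hx.1 (hcon x hx)) (by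
              intro x _ y _ e
              have e' : x = y := e
              subst e'; simp)
          have h2 : ({1, c} : Finset G).card ≤ 2 := Finset.card_le_two
          rw [Subgroup.card_bot, mul_one] at h1
          omega
        have h5 := card_le_cm (K := E) (h := t * t2) (F := X ⊓ E) (S := X ⊓ E) hEab
          (fun x hx => conj_mem' hx _) (fun x hx hxy => ⟨(hXm x).2 ⟨hEC hx, com_of_cj hxy⟩, hx⟩)
          (by
            intro x hx
            have h6 : cm x (t * t2) ∈ E := by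
              rw [cm_eq]; exact E.mul_mem (E.inv_mem hx) (conj_mem' hx _)
            refine ⟨(hXm _).2 ⟨hEC h6, ?_⟩, h6⟩
            apply com_of_cj
            have h7 : cj (cj x (t * t2)) (t * t2) = x := by
              rw [cj_cj]
              exact cj_of_com (hCE _ hτC x hx)
            rw [cm_eq, cj_mul, cj_inv, h7]
            have h8 := hE2 x hx
            have h9 := hE2 _ (conj_mem' hx (t * t2) : cj x (t * t2) ∈ E)
            rw [inv_eq_of_mul_eq_one_left h8, inv_eq_of_mul_eq_one_left h9]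
            exact hEab _ (conj_mem' hx _) _ hx)
        rw [hE8] at h5
        have : Nat.card ↥(X ⊓ E) * Nat.card ↥(X ⊓ E) ≤ 2 * 2 := Nat.mul_le_mul hXE hXE
        omega
      refine LA_card (τ := t) ⟨fun x _ => h.p x, fun x hx _ y hy => hCab x hx.1 y hy.1⟩
        (fun x hx y hy => hCab x hx.1 y hy.1) ?_ ?_ hXt hb.1 (hE2 b hb.2) hbt
      · intro x hx
        rw [hXm] at hx ⊢
        refine ⟨hCc x hx.1 t, ?_⟩
        have h1 : x * (t2 * t) = (t2 * t) * x := by
          have h2 : t2 * t = (t * t2)⁻¹ := by rw [mul_inv_rev, ht', ht2']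
          rw [h2]
          calc x * (t * t2)⁻¹ = (t * t2)⁻¹ * ((t * t2) * x) * (t * t2)⁻¹ := by group
            _ = (t * t2)⁻¹ * (x * (t * t2)) * (t * t2)⁻¹ := by rw [hx.2]
            _ = _ := by group
        have h3 : cj x t * (t * t2) = t⁻¹ * (x * (t2 * t)) * t := by
          unfold cj
          calc t⁻¹ * x * t * (t * t2) = t⁻¹ * x * (t * t) * t2 := by group
            _ = t⁻¹ * x * t2 * (t * t) := by rw [h.tt]; group
            _ = _ := by group
        rw [h3, h1]
        unfold cj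
        calc t⁻¹ * (t2 * t * x) * t = t⁻¹ * t2 * (t * t) * t⁻¹ * x * t := by group
          _ = (t * t2) * (t⁻¹ * x * t) := by rw [h.tt, ht']; group
      · intro x _; rw [cj_cj, h.tt]; unfold cj; group
    have := card_le_cm hKab (hKcj y hy) (F := X) (S := K ⊓ Sq H)
      (fun x hx hxy => (hXm x).2 ⟨hKC hx, hcomm _ y hty x (hKC hx) hxy⟩) (hKcm y hy)
    have h6 : Nat.card X * Nat.card ↥(K ⊓ Sq H) ≤ 4 * Nat.card ↥(K ⊓ Sq H) :=
      Nat.mul_le_mul_right _ hX4
    have e4 : (2 : ℕ) ^ 2 = 4 := by norm_num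
    rw [e4]; omega
  -- (γ)
  have hHN : ∀ x ∈ H, x ∈ N → x ∈ C := by
    intro x hx hxN
    by_contra hxC
    by_cases hxT : x ∈ Tt B
    · exact hα1 ⟨x, hx, hstepC t h.tT x hxT htC hxC⟩
    · have h1 := hstepT t2 ht2N x hxN ht2T hxT
      by_cases h2 : t2 * x ∈ C
      · exact hα2 ⟨x, hx, h2⟩
      · exact hβ ⟨x, hx, by rw [mul_assoc]; exact hstepC t h.tT _ h1 htC h2⟩
  by_cases hHle : H ≤ N
  · exact hR4 H fun x hx => hHN x hx (hHle hx)
  obtain ⟨y, hyH, hyN⟩ := SetLike.not_le_iff_exists.1 hHle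
  have hHK : Nat.card H ≤ 2 * Nat.card K := card_le_two_mul (y := y⁻¹) (by
    intro x hx
    by_cases hxN : x ∈ N
    · exact Or.inl ⟨hx, hHN x hx hxN⟩
    · refine Or.inr ?_
      have h1 : y⁻¹ * x ∈ N := (mul_mem_iff_of_index_two hNi).2 (by
        constructor
        · intro e; exact absurd (N.inv_mem_iff.1 e) hyN
        · intro e; exact absurd e hxN)
      have h2 := H.mul_mem (H.inv_mem hyH) hx
      exact ⟨h2, hHN _ h2 h1⟩)
  refine add (K := K) hKH (a := 3) (b := 1) ?_ ?_
  · rcases hR3 with hR3 | hR3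
    · by_cases hKc : K = C
      · obtain ⟨e, he, hey⟩ : ∃ e ∈ E, e * y ≠ y * e := by
          by_contra hcon
          push Not at hcon
          apply hyN
          have : y ∈ C := mem_centralizer_iff.2 hcon
          exact (hCT.trans hTlt.le) this
        have h1 : cm e y ∈ K ⊓ Sq H := hKcm y hyH e (by rw [hKc]; exact hEC he)
        have h2 : K ⊓ Sq H ≠ ⊥ := by
          intro e'
          rw [e', mem_bot] at h1
          exact hey (comm_of_cm h1)
        have h3 : 1 < Nat.card ↥(K ⊓ Sq H) := (Subgroup.one_lt_card_iff_ne_bot _).2 h2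
        rw [hKc] at h3 ⊢
        have e8 : (2 : ℕ) ^ 3 = 8 := by norm_num
        rw [e8]; omega
      · have h1 := two_card_le (lt_of_le_of_ne hKC hKc)
        have h2 : 0 < Nat.card ↥(K ⊓ Sq H) := Nat.card_pos
        have e8 : (2 : ℕ) ^ 3 = 8 := by norm_num
        rw [e8]; omega
    · exact inf_Sq_ge hKH (hR3 K hKC)
  · have h1 := card_sub (le_sup_left : K ≤ K ⊔ Sq H)
    norm_num; omega

end H87.SC9
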