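import Mathlib
import Cfsg.Prelude
import Cfsg.Agent.Lib.H87.Hr.SC9

set_option autoImplicit false
set_option maxHeartbeats 400000

/-! Two elements inducing the transvections with centre `z` on a normal `E8`. -/

namespace H87.SD1

open Subgroup H87.MW1 H87.MW2 H87.MW3 H87.MW4 H87.MW5 H87.MW7 H87.MW8 H87.SC1 H87.SC2 H87.SC3 H87.SC7
  H87.SC8

variable {G : Type*} [Group G]

structure K1h (E : Subgroup G) (z a b : G) : Prop where
  En : E.Normal
  Eab : ∀ x ∈ E, ∀ y ∈ E, x * y = y * x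
  E2 : ∀ x ∈ E, x * x = 1
  E8 : Nat.card E = 8
  zE : z ∈ E
  z1 : z ≠ 1
  zc : ∀ g, cj z g = z
  ha : ∀ e ∈ E, cj e a = e ∨ cj e a = e * z
  hb : ∀ e ∈ E, cj e b = e ∨ cj e b = e * z
  haa : ∀ x, cj x (a * a) = x
  hbb : ∀ x, cj x (b * b) = x
  hab : ∀ x, cj x (a * b) = cj x (b * a)
  fix : ∀ x ∈ centralizer (E : Set G), x * a = a * x → x * b = b * x → x = 1 ∨ x = z

variable {E : Subgroup G} {z a b : G}

namespace K1h

theorem swap (h : K1h E z a b) : K1h E z b a where
  En := h.En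
  Eab := h.Eab
  E2 := h.E2
  E8 := h.E8
  zE := h.zE
  z1 := h.z1
  zc := h.zc
  ha := h.hb
  hb := h.ha
  haa := h.hbb
  hbb := h.haa
  hab := fun x => (h.hab x).symm
  fix := fun x hx h1 h2 => h.fix x hx h2 h1

theorem zz (h : K1h E z a b) : z * z = 1 := h.E2 z h.zE

theorem EC (h : K1h E z a b) : E ≤ centralizer (E : Set G) :=
  fun x hx => mem_centralizer_iff.2 fun y hy => h.Eab y hy x hx

theorem CE (_h : K1h E z a b) {x e : G} (hx : x ∈ centralizer (E : Set G)) (he : e ∈ E) :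
    e * x = x * e := mem_centralizer_iff.1 hx e he

theorem oz (h : K1h E z a b) {s : G} (hs : s = 1 ∨ s = z) : s ∈ E ∧ s * s = 1 := by
  rcases hs with rfl | rfl
  · exact ⟨E.one_mem, one_mul 1⟩
  · exact ⟨h.zE, h.zz⟩

/-- values -/
theorem sur [Finite G] (h : K1h E z a b) {s t : G} (hs : s = 1 ∨ s = z) (ht : t = 1 ∨ t = z) :
    ∃ e ∈ E, cj e a = e * s ∧ cj e b = e * t := by
  classical
  by_contra hcon
  push Not at hcon
  have hcm : ∀ e ∈ E, ∀ g : G, (cj e g = e ∨ cj e g = e * z) → (cm e g = 1 ∨ cm e g = z) := by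
    intro e _ g hg
    rw [cm_eq]
    rcases hg with e1 | e1
    · left; rw [e1]; group
    · right; rw [e1]; group
  have hz2 : Nat.card (zpowers z) ≤ 2 := by
    rw [Nat.card_zpowers]
    exact orderOf_le_of_pow_eq_one (by norm_num) (by rw [pow_two]; exact h.zz)
  set S : Finset (G × G) := (({(1, 1), (1, z), (z, 1), (z, z)} : Finset (G × G)).erase (s, t)) with hS
  have hScard : S.card ≤ 3 := by
    have h1 : ({(1, 1), (1, z), (z, 1), (z, z)} : Finset (G × G)).card ≤ 4 := Finset.card_le_four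
    have h2 : (s, t) ∈ ({(1, 1), (1, z), (z, 1), (z, z)} : Finset (G × G)) := by
      rcases hs with rfl | rfl <;> rcases ht with rfl | rfl <;> simp
    have h3 := Finset.card_erase_of_mem h2
    rw [hS, h3]; omega
  have h1 := card_le_fiber (H := E) (K := zpowers z) (fun e : G => (cm e a, cm e b)) S (by
    intro e he
    rw [hS, Finset.mem_erase]
    constructor
    · intro e1
      have e2 : cm e a = s := congrArg Prod.fst e1
      have e3 : cm e b = t := congrArg Prod.snd e1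
      exact hcon e he (by rw [cj_eq, e2]) (by rw [cj_eq, e3])
    · rcases hcm e he a (h.ha e he) with e1 | e1 <;> rcases hcm e he b (h.hb e he) with e2 | e2 <;>
        simp [e1, e2]) (by
    intro x hx y hy e
    have e1 : cm x a = cm y a := congrArg Prod.fst e
    have e2 : cm x b = cm y b := congrArg Prod.snd e
    have hgen : ∀ g, cm x g = cm y g → (cm x g ∈ E) → cj (x⁻¹ * y) g = x⁻¹ * y := by
      intro g hg hE
      rw [cj_mul, cj_inv, cj_eq x, cj_eq y, ← hg]
      calc (x * cm x g)⁻¹ * (y * cm x g) = (x * cm x g)⁻¹ * (cm x g * y) := by rw [h.Eab _ hy _ hE]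
        _ = (cm x g * x)⁻¹ * (cm x g * y) := by rw [h.Eab _ hx _ hE]
        _ = _ := by group
    have hin : ∀ g, cm x g ∈ E := fun g => by
      haveI := h.En
      rw [cm_eq]; exact E.mul_mem (E.inv_mem hx) (conj_mem' hx g)
    rcases h.fix (x⁻¹ * y) (h.EC (E.mul_mem (E.inv_mem hx) hy)) (com_of_cj (hgen a e1 (hin a)))
      (com_of_cj (hgen b e2 (hin b))) with e3 | e3
    · show x⁻¹ * y ∈ zpowers z
      rw [e3]; exact one_mem _
    · show x⁻¹ * y ∈ zpowers z
      rw [e3]; exact mem_zpowers z)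
  rw [h.E8] at h1
  have : S.card * Nat.card (zpowers z) ≤ 3 * 2 := Nat.mul_le_mul hScard hz2
  omega

theorem S2 [Finite G] (h : K1h E z a b) {y ia ib : G} (hy : y ∈ centralizer (E : Set G)) (hyE : y ∉ E)
    (hia : ia ∈ E) (hib : ib ∈ E) (ea : cj y a = y * ia) (eb : cj y b = y * ib) :
    cj ia a = ia ∧ cj ib b = ib ∧ cj ia b = ia * z ∧ cj ib a = ib * z := by
  have iaa := h.E2 ia hia
  have ibb := h.E2 ib hib
  have e1 : cj ia a = ia := by
    have h1 := h.haa y
    rw [← cj_cj, ea, cj_mul, ea] at h1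
    have h2 : ia * cj ia a = 1 := by
      have : y * (ia * cj ia a) = y * 1 := by rw [mul_one, ← mul_assoc]; exact h1
      exact mul_left_cancel this
    calc cj ia a = ia⁻¹ := (inv_eq_of_mul_eq_one_right h2).symm
      _ = ia := inv_eq_of_mul_eq_one_left iaa
  have e2 : cj ib b = ib := by
    have h1 := h.hbb y
    rw [← cj_cj, eb, cj_mul, eb] at h1
    have h2 : ib * cj ib b = 1 := by
      have : y * (ib * cj ib b) = y * 1 := by rw [mul_one, ← mul_assoc]; exact h1
      exact mul_left_cancel this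
    calc cj ib b = ib⁻¹ := (inv_eq_of_mul_eq_one_right h2).symm
      _ = ib := inv_eq_of_mul_eq_one_left ibb
  have e3 : ib * cj ia b = ia * cj ib a := by
    have h1 := h.hab y
    rw [← cj_cj, ← cj_cj, ea, eb, cj_mul, cj_mul, eb, ea, mul_assoc, mul_assoc] at h1
    exact mul_left_cancel h1
  rcases h.hb ia hia with e4 | e4
  · exfalso
    rw [e4, h.Eab _ hib _ hia] at e3
    have e5 : cj ib a = ib := (mul_left_cancel e3).symm
    have h1 := h.fix ia (h.EC hia) (com_of_cj e1) (com_of_cj e4)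
    have h2 := h.fix ib (h.EC hib) (com_of_cj e5) (com_of_cj e2)
    obtain ⟨e, he, hea, heb⟩ := h.sur h1 h2
    have hee := h.E2 e he
    have k1 : cj (y * e) a = y * e := by
      rw [cj_mul, ea, hea]
      calc y * ia * (e * ia) = y * (ia * e) * ia := by group
        _ = y * (e * ia) * ia := by rw [h.Eab _ hia _ he]
        _ = y * e * (ia * ia) := by group
        _ = _ := by rw [iaa, mul_one]
    have k2 : cj (y * e) b = y * e := by
      rw [cj_mul, eb, heb]
      calc y * ib * (e * ib) = y * (ib * e) * ib := by group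
        _ = y * (e * ib) * ib := by rw [h.Eab _ hib _ he]
        _ = y * e * (ib * ib) := by group
        _ = _ := by rw [ibb, mul_one]
    have h3 := h.oz (h.fix (y * e) ((centralizer (E : Set G)).mul_mem hy (h.EC he)) (com_of_cj k1)
      (com_of_cj k2))
    apply hyE
    have : y = (y * e) * e := by rw [mul_assoc, hee, mul_one]
    rw [this]; exact E.mul_mem h3.1 he
  · refine ⟨e1, e2, e4, ?_⟩
    rw [e4] at e3
    have h1 : ia * cj ib a = ia * (ib * z) := by
      rw [← e3]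
      calc ib * (ia * z) = (ib * ia) * z := by group
        _ = ia * ib * z := by rw [h.Eab _ hib _ hia]
        _ = _ := by group
    exact mul_left_cancel h1

theorem S3 [Finite G] (h : K1h E z a b) {x ia ib y ja jb : G} (hx : x ∈ centralizer (E : Set G))
    (hxE : x ∉ E) (hia : ia ∈ E) (hib : ib ∈ E) (ea : cj x a = x * ia) (eb : cj x b = x * ib)
    (hy : y ∈ centralizer (E : Set G)) (hyE : y ∉ E) (hja : ja ∈ E) (hjb : jb ∈ E)
    (ea' : cj y a = y * ja) (eb' : cj y b = y * jb) : x⁻¹ * y ∈ E := by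
  by_contra hw
  obtain ⟨-, -, h1, -⟩ := h.S2 hx hxE hia hib ea eb
  obtain ⟨-, -, h2, -⟩ := h.S2 hy hyE hja hjb ea' eb'
  set C := centralizer (E : Set G)
  have k : ∀ i j, i ∈ E → j ∈ E → (x * i)⁻¹ * (y * j) = (x⁻¹ * y) * (i⁻¹ * j) := by
    intro i j hi _
    have c1 : i⁻¹ * x⁻¹ = x⁻¹ * i⁻¹ := h.CE (C.inv_mem hx) (E.inv_mem hi)
    have c2 : i⁻¹ * y = y * i⁻¹ := h.CE hy (E.inv_mem hi)
    calc (x * i)⁻¹ * (y * j) = (i⁻¹ * x⁻¹) * y * j := by group
      _ = x⁻¹ * (i⁻¹ * y) * j := by rw [c1]; group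
      _ = _ := by rw [c2]; group
  have k1 : cj (x⁻¹ * y) a = (x⁻¹ * y) * (ia⁻¹ * ja) := by rw [cj_mul, cj_inv, ea, ea', k _ _ hia hja]
  have k2 : cj (x⁻¹ * y) b = (x⁻¹ * y) * (ib⁻¹ * jb) := by rw [cj_mul, cj_inv, eb, eb', k _ _ hib hjb]
  obtain ⟨-, -, h3, -⟩ := h.S2 (C.mul_mem (C.inv_mem hx) hy) hw (E.mul_mem (E.inv_mem hia) hja)
    (E.mul_mem (E.inv_mem hib) hjb) k1 k2
  rw [cj_mul, cj_inv, h1, h2] at h3
  apply h.z1
  have h4 : (ia * z)⁻¹ * (ja * z) = ia⁻¹ * ja := by
    calc (ia * z)⁻¹ * (ja * z) = (ia * z)⁻¹ * (z * ja) := by rw [h.Eab _ hja _ h.zE]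
      _ = (z * ia)⁻¹ * (z * ja) := by rw [h.Eab _ hia _ h.zE]
      _ = _ := by group
  rw [h4] at h3
  exact (mul_eq_left.1 h3.symm)

/-- if `[y,a] ∈ xE` impossible -/
theorem S4 [Finite G] (h : K1h E z a b) {x ia ib y e : G} (hx : x ∈ centralizer (E : Set G))
    (hxE : x ∉ E) (hia : ia ∈ E) (hib : ib ∈ E) (ea : cj x a = x * ia) (eb : cj x b = x * ib)
    (he : e ∈ E) (hy : cj y a = y * (x * e)) : False := by
  obtain ⟨h0, -, h1, -⟩ := h.S2 hx hxE hia hib ea eb
  set C := centralizer (E : Set G)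
  have hsq : ∀ i ∈ E, (x * i) * (x * i) = x * x := by
    intro i hi
    calc (x * i) * (x * i) = x * (i * x) * i := by group
      _ = x * (x * i) * i := by rw [h.CE hx hi]
      _ = x * x * (i * i) := by group
      _ = _ := by rw [h.E2 i hi, mul_one]
  have hxx : x * x = 1 ∨ x * x = z := by
    apply h.fix _ (C.mul_mem hx hx)
    · apply com_of_cj; rw [cj_mul, ea]; exact hsq ia hia
    · apply com_of_cj; rw [cj_mul, eb]; exact hsq ib hib
  have h2 := h.haa y
  rw [← cj_cj, hy, cj_mul, hy, cj_mul, ea] at h2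
  have h3 : (x * e) * (x * ia * cj e a) = 1 := by
    have : y * ((x * e) * (x * ia * cj e a)) = y * 1 := by rw [mul_one, ← mul_assoc]; exact h2
    exact mul_left_cancel this
  have h4 : (x * e) * (x * ia * cj e a) = (x * x) * (e * (ia * cj e a)) := by
    calc (x * e) * (x * ia * cj e a) = x * (e * x) * (ia * cj e a) := by group
      _ = x * (x * e) * (ia * cj e a) := by rw [h.CE hx he]
      _ = _ := by group
  rw [h4] at h3
  -- `ia ∈ {1,z}`
  have h5 : ∃ s, (s = 1 ∨ s = z) ∧ e * (ia * cj e a) = ia * s := by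
    rcases h.ha e he with e1 | e1
    · refine ⟨1, Or.inl rfl, ?_⟩
      rw [e1, h.Eab _ hia _ he, ← mul_assoc, h.E2 e he, one_mul, mul_one]
    · refine ⟨z, Or.inr rfl, ?_⟩
      rw [e1, ← mul_assoc, ← mul_assoc, h.Eab _ he _ hia, mul_assoc ia, h.E2 e he, mul_one]
  obtain ⟨s, hs, h6⟩ := h5
  rw [h6] at h3
  have hcen : ∀ u, (u = 1 ∨ u = z) → cj u b = u := by
    intro u hu
    rcases hu with rfl | rfl
    · exact cj_one b
    · exact h.zc b
  have h7 : ia = (x * x)⁻¹ * s⁻¹ := by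
    have : ia = (x * x)⁻¹ * (x * x * (ia * s)) * s⁻¹ := by group
    rw [this, h3]; group
  have h8 : cj ia b = ia := by
    rw [h7, cj_mul, cj_inv, cj_inv, hcen _ hxx, hcen _ hs]
  rw [h8] at h1
  exact h.z1 (mul_eq_left.1 h1.symm)

end K1h

end H87.SD1
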