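import Mathlib
import Cfsg.Prelude
import Cfsg.Agent.Lib.H87.Hr.SD1

set_option autoImplicit false
set_option maxHeartbeats 400000

/-! Two elements inducing the transvections with centre `z` on a normal `E8`: rank at most four. -/

namespace H87.SD1

open Subgroup H87.MW1 H87.MW2 H87.MW3 H87.MW4 H87.MW5 H87.MW7 H87.MW8 H87.SC1 H87.SC2 H87.SC3 H87.SC7
  H87.SC8

variable {G : Type*} [Group G]

/-- an element whose centraliser in the abelian normal subgroup is small -/
theorem final [Finite G] {C : Subgroup G} [C.Normal] (hCab : ∀ x ∈ C, ∀ y ∈ C, x * y = y * x)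
    {H : Subgroup G} (hb : Nat.card H ≤ 2 ^ 2 * Nat.card ↥((H ⊓ C) ⊔ Sq H)) {r : G} {F : Subgroup G}
    (hF : Nat.card F ≤ 4) (hr : ∀ x ∈ C, x * r = r * x → x ∈ F) {y : G} (hy : y ∈ H) (hry : r * y ∈ C) :
    Nat.card H ≤ 2 ^ 4 * Nat.card (Sq H) := by
  refine add (K := H ⊓ C) inf_le_left (a := 2) (b := 2) ?_ hb
  have h1 := card_le_cm (K := H ⊓ C) (h := y) (F := F) (S := (H ⊓ C) ⊓ Sq H)
    (fun x hx y hy => hCab x hx.2 y hy.2) (by
      intro x hx
      refine ⟨?_, conj_mem' hx.2 y⟩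
      unfold cj
      exact H.mul_mem (H.mul_mem (H.inv_mem hy) hx.1) hy) (by
      intro x hx hxy
      apply hr x hx.2
      have h1 := com_of_cj hxy
      have h2 := hCab x hx.2 _ hry
      have h3 : x * r * y = r * x * y := by
        calc x * r * y = x * (r * y) := by group
          _ = r * y * x := h2
          _ = r * (y * x) := by group
          _ = r * (x * y) := by rw [h1]
          _ = _ := by group
      exact mul_right_cancel h3) (by
      intro x hx
      refine ⟨⟨?_, ?_⟩, comm_mem hx.1 hy⟩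
      · unfold cm
        exact H.mul_mem (H.mul_mem (H.mul_mem (H.inv_mem hx.1) (H.inv_mem hy)) hx.1) hy
      · rw [cm_eq]; exact C.mul_mem (C.inv_mem hx.2) (conj_mem' hx.2 y))
  have h2 : Nat.card F * Nat.card ↥((H ⊓ C) ⊓ Sq H) ≤ 4 * Nat.card ↥((H ⊓ C) ⊓ Sq H) :=
    Nat.mul_le_mul_right _ hF
  have e4 : (2 : ℕ) ^ 2 = 4 := by norm_num
  rw [e4]; exact h1.trans h2

/-- the last step -/
theorem last [Finite G] {C E : Subgroup G} [C.Normal] (hEC : E ≤ C) (hCE : C = centralizer (E : Set G))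
    (h16 : Nat.card C ≤ 16) {H : Subgroup G} {y : G} (hy : y ∈ H) (hyC : y ∉ C)
    (h2 : ∀ x ∈ H, x ∉ C → y * x ∈ C) : Nat.card H ≤ 2 ^ 4 * Nat.card (Sq H) := by
  set K := H ⊓ C with hK
  have hHK : Nat.card H ≤ 2 * Nat.card K := card_le_two_mul (y := y) (by
    intro x hx
    by_cases hxC : x ∈ C
    · exact Or.inl ⟨hx, hxC⟩
    · exact Or.inr ⟨H.mul_mem hy hx, h2 x hx hxC⟩)
  refine add (K := K) inf_le_left (a := 3) (b := 1) ?_ ?_
  · have e8 : (2 : ℕ) ^ 3 = 8 := by norm_num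
    rw [e8]
    by_cases hKc : K = C
    · obtain ⟨e, he, hey⟩ : ∃ e ∈ E, e * y ≠ y * e := by
        by_contra hcon
        push Not at hcon
        exact hyC (by rw [hCE]; exact mem_centralizer_iff.2 hcon)
      have h1 : cm e y ∈ K ⊓ Sq H := by
        have heK : e ∈ K := by rw [hKc]; exact hEC he
        refine ⟨⟨?_, ?_⟩, comm_mem heK.1 hy⟩
        · unfold cm
          exact H.mul_mem (H.mul_mem (H.mul_mem (H.inv_mem heK.1) (H.inv_mem hy)) heK.1) hy
        · rw [cm_eq]; exact C.mul_mem (C.inv_mem heK.2) (conj_mem' heK.2 y)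
      have h2 : K ⊓ Sq H ≠ ⊥ := by
        intro e'
        rw [e', mem_bot] at h1
        exact hey (comm_of_cm h1)
      have h3 : 1 < Nat.card ↥(K ⊓ Sq H) := (Subgroup.one_lt_card_iff_ne_bot _).2 h2
      rw [hKc] at h3 ⊢
      omega
    · have hKle : K ≤ C := inf_le_right
      have h1 : 2 * Nat.card K ≤ Nat.card C := two_card_le (lt_of_le_of_ne hKle hKc)
      have h2 : 0 < Nat.card ↥(K ⊓ Sq H) := Nat.card_pos
      omega
  · have h1 := card_sub (le_sup_left : K ≤ K ⊔ Sq H)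
    have e2 : (2 : ℕ) ^ 1 = 2 := by norm_num
    rw [e2]; omega

variable {E : Subgroup G} {z a b : G}

namespace K1h

theorem str [Finite G] (h : K1h E z a b) (hG : IsPGroup 2 G) :
    (∀ y ∈ centralizer (E : Set G), ∀ g, cm y g ∈ E) ∧
    (∀ x ∈ centralizer (E : Set G), ∀ y ∈ centralizer (E : Set G), x * y = y * x) ∧
    Nat.card (centralizer (E : Set G)) ≤ 16 := by
  haveI := h.En
  haveI hCn : (centralizer (E : Set G)).Normal := inferInstance
  haveI : Fact (Nat.Prime 2) := ⟨Nat.prime_two⟩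
  have hgen : ∀ L T : Subgroup G, L.Normal → T.Normal → L ≤ T → Nat.card T = Nat.card L * 2 →
      ∀ y ∈ T, ∀ g, cm y g ∈ L := by
    intro L T hL hT hLT hc y hy g
    haveI := hL
    haveI := hT
    rw [cm_eq]
    by_cases hyL : y ∈ L
    · exact L.mul_mem (L.inv_mem hyL) (conj_mem' hyL g)
    · refine two_step hLT hc (T.inv_mem hy) (conj_mem' hy g) (fun e => hyL (L.inv_mem_iff.1 e)) ?_
      intro e
      apply hyL
      have := conj_mem' e g⁻¹
      rw [cj_cj, mul_inv_cancel] at this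
      simpa [cj] using this
  by_cases hCE : E = centralizer (E : Set G)
  · rw [← hCE]
    refine ⟨fun y hy g => ?_, h.Eab, by rw [h.E8]; norm_num⟩
    rw [cm_eq]; exact E.mul_mem (E.inv_mem hy) (conj_mem' hy g)
  obtain ⟨E', hE'n, hEE', hE'C, hc'⟩ := H82.DLen.exists_step hG h.EC hCE
  have hE'g := hgen E E' h.En hE'n hEE' hc'
  have hlt : E < E' := by
    refine lt_of_le_of_ne hEE' fun e => ?_
    rw [← e, h.E8] at hc'; omega
  obtain ⟨x, hxE', hxE⟩ := SetLike.exists_of_lt hlt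
  have hEe : E' = centralizer (E : Set G) := by
    by_contra hne
    obtain ⟨E2, hE2n, hE'2, hE2C, hc2⟩ := H82.DLen.exists_step hG hE'C hne
    have hlt2 : E' < E2 := by
      refine lt_of_le_of_ne hE'2 fun e => ?_
      rw [← e] at hc2
      have : 0 < Nat.card E' := Nat.card_pos
      omega
    obtain ⟨y, hy2, hyE'⟩ := SetLike.exists_of_lt hlt2
    have hyg := hgen E' E2 hE'n hE2n hE'2 hc2 y hy2
    have hdec : ∀ k ∈ E', k ∉ E → x⁻¹ * k ∈ E := fun k hk hkE =>
      two_step hEE' hc' (E'.inv_mem hxE') hk (fun e => hxE (E.inv_mem_iff.1 e)) hkE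
    have hxC := hE'C hxE'
    have ea : cj x a = x * cm x a := cj_eq x a
    have eb : cj x b = x * cm x b := cj_eq x b
    have hia := hE'g x hxE' a
    have hib := hE'g x hxE' b
    have hja : cm y a ∈ E := by
      by_contra hn
      refine h.S4 (y := y) hxC hxE hia hib ea eb (hdec _ (hyg a) hn) ?_
      rw [cj_eq]; group
    have hjb : cm y b ∈ E := by
      by_contra hn
      refine h.swap.S4 (y := y) hxC hxE hib hia eb ea (hdec _ (hyg b) hn) ?_
      rw [cj_eq]; group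
    have h3 := h.S3 hxC hxE hia hib ea eb (hE2C hy2) (fun e => hyE' (hEE' e)) hja hjb
      (cj_eq y a) (cj_eq y b)
    apply hyE'
    have h4 := E'.mul_mem hxE' (hEE' h3)
    have h5 : x * (x⁻¹ * y) = y := by group
    rwa [h5] at h4
  rw [← hEe]
  refine ⟨hE'g, ?_, by rw [hc', h.E8]⟩
  intro u hu v hv
  have hu' := hE'C hu
  have hv' := hE'C hv
  by_cases huE : u ∈ E
  · exact h.CE hv' huE
  by_cases hvE : v ∈ E
  · exact (h.CE hu' hvE).symm
  have h1 := two_step hEE' hc' hu hv huE hvE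
  have h2 := h.CE hu' h1
  have h3 : u * (u * v) = u * (v * u) := by rw [← h2]; group
  exact mul_left_cancel h3

theorem mulz (h : K1h E z a b) {e f g : G} (he : cj e g = e ∨ cj e g = e * z)
    (hf : cj f g = f ∨ cj f g = f * z) : cj (e * f) g = e * f ∨ cj (e * f) g = e * f * z := by
  have hzf : z * f = f * z := by
    have := h.zc f
    unfold cj at this
    calc z * f = f * (f⁻¹ * z * f) := by group
      _ = _ := by rw [this]
  rw [cj_mul]
  rcases he with e1 | e1 <;> rcases hf with e2 | e2 <;> rw [e1, e2]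
  · left; rfl
  · right; group
  · right
    calc e * z * f = e * (z * f) := by group
      _ = _ := by rw [hzf]; group
  · left
    calc e * z * (f * z) = e * (z * f) * z := by group
      _ = e * f * (z * z) := by rw [hzf]; group
      _ = _ := by rw [h.zz, mul_one]

theorem ker_eq (h : K1h E z a b) {e f s t : G} (he : e ∈ E) (hf : f ∈ E) (hs : s = 1 ∨ s = z)
    (ht : t = 1 ∨ t = z) (h1 : cj e a = e * s) (h2 : cj e b = e * t) (h3 : cj f a = f * s)
    (h4 : cj f b = f * t) : e⁻¹ * f = 1 ∨ e⁻¹ * f = z := by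
  have hg : ∀ g u, (u = 1 ∨ u = z) → cj e g = e * u → cj f g = f * u → cj (e⁻¹ * f) g = e⁻¹ * f := by
    intro g u hu k1 k2
    have huE := (h.oz hu).1
    rw [cj_mul, cj_inv, k1, k2]
    calc (e * u)⁻¹ * (f * u) = (e * u)⁻¹ * (u * f) := by rw [h.Eab _ hf _ huE]
      _ = (u * e)⁻¹ * (u * f) := by rw [h.Eab _ he _ huE]
      _ = _ := by group
  exact h.fix _ (h.EC (E.mul_mem (E.inv_mem he) hf)) (com_of_cj (hg a s hs h1 h3))
    (com_of_cj (hg b t ht h2 h4))

theorem main [Finite G] (h : K1h E z a b) (hG : IsPGroup 2 G) : RK 4 (⊤ : Subgroup G) := by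
  classical
  haveI := h.En
  obtain ⟨hC8, hC8'⟩ := FL hG h.En h.Eab h.E2 h.E8
  obtain ⟨hcm, hCab, h16⟩ := h.str hG
  obtain ⟨z0, e2, e3, hz0E, he2E, he3E, hz01, he21, he2z, hz0c, h2, h3, hall, -, -, -, -⟩ :=
    flag hG h.En h.Eab h.E2 h.E8
  set C := centralizer (E : Set G) with hC
  haveI hCn : C.Normal := by rw [hC]; infer_instance
  have hz0 : z0 = z := by
    rcases h.fix z0 (h.EC hz0E) (com_of_cj (hz0c a)) (com_of_cj (hz0c b)) with e | e
    · exact absurd e hz01
    · exact e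
  subst hz0
  -- fixed points
  have hS2 : ∀ y ∈ C, y ∉ E → _ := fun y hy hyE =>
    h.S2 hy hyE (hcm y hy a) (hcm y hy b) (cj_eq y a) (cj_eq y b)
  have hFa : ∀ x ∈ C, x * a = a * x → x ∈ E := by
    intro x hx hxa
    by_contra hxE
    obtain ⟨-, -, k, -⟩ := hS2 x hx hxE
    rw [cm_of_comm hxa, cj_one, one_mul] at k
    exact h.z1 k.symm
  have hFb : ∀ x ∈ C, x * b = b * x → x ∈ E := by
    intro x hx hxa
    by_contra hxE
    obtain ⟨-, -, -, k⟩ := hS2 x hx hxE
    rw [cm_of_comm hxa, cj_one, one_mul] at k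
    exact h.z1 k.symm
  have hFab : ∀ x ∈ C, x * (a * b) = (a * b) * x → x ∈ E := by
    intro x hx hxa
    by_contra hxE
    obtain ⟨k1, k2, k3, k4⟩ := hS2 x hx hxE
    have k5 := cj_of_com hxa
    rw [← cj_cj, cj_eq x a, cj_mul, k3, cj_eq x b] at k5
    have k6 : cm x b * (cm x a * z0) = 1 := by
      have : x * (cm x b * (cm x a * z0)) = x * 1 := by rw [mul_one, ← mul_assoc]; exact k5
      exact mul_left_cancel this
    have hia := hcm x hx a
    have k7 : cm x b = cm x a * z0 := by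
      have k8 := h.E2 _ (E.mul_mem hia h.zE)
      calc cm x b = (cm x a * z0)⁻¹ := eq_inv_of_mul_eq_one_left k6
        _ = _ := inv_eq_of_mul_eq_one_left k8
    rw [k7, cj_mul, k1, h.zc] at k4
    exact h.z1 (mul_eq_left.1 k4.symm)
  have hFc : ∀ r e : G, e ∈ E → e * r ≠ r * e → Nat.card ↥(E ⊓ centralizer ({r} : Set G)) ≤ 4 := by
    intro r e he her
    have hlt : E ⊓ centralizer ({r} : Set G) < E := by
      refine lt_of_le_of_ne inf_le_left fun e' => her ?_
      rw [← e'] at he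
      exact mem_centralizer_singleton_iff.1 he.2
    have := two_card_le hlt
    rw [h.E8] at this
    omega
  obtain ⟨ea, hea, heaa, heab⟩ := h.sur (Or.inl rfl : (1 : G) = 1 ∨ (1 : G) = z0) (Or.inr rfl)
  obtain ⟨eb, heb, heba, hebb⟩ := h.sur (Or.inr rfl : z0 = 1 ∨ z0 = z0) (Or.inl rfl)
  rw [mul_one] at heaa hebb
  have hne : ∀ e r : G, cj e r = e * z0 → e * r ≠ r * e := by
    intro e r h1 h2
    rw [cj_of_com h2] at h1
    exact h.z1 (mul_eq_left.1 h1.symm)
  have hca := hFc a eb heb (hne _ _ heba)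
  have hcb := hFc b ea hea (hne _ _ heab)
  have hcab := hFc (a * b) eb heb (hne _ _ (by rw [← cj_cj, heba, cj_mul, hebb, h.zc]))
  -- membership in `C`
  have hmemC : ∀ u, cj ea u = ea → cj eb u = eb → u ∈ C := by
    intro u h1 h2
    rw [hC, mem_centralizer_iff]
    intro e he
    have hgen : ∀ f, f ∈ E → cj f u = f → (e⁻¹ * f = 1 ∨ e⁻¹ * f = z0) → e * u = u * e := by
      intro f _ hfu hef
      apply com_of_cj
      have h5 : cj (e⁻¹ * f) u = e⁻¹ * f := by
        rcases hef with e' | e'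
        · rw [e']; exact cj_one u
        · rw [e']; exact h.zc u
      rw [cj_mul, hfu, cj_inv] at h5
      exact inv_injective (mul_right_cancel h5)
    rcases h.ha e he with k1 | k1 <;> rcases h.hb e he with k2 | k2
    · exact hgen 1 E.one_mem (cj_one u) (h.ker_eq he E.one_mem (Or.inl rfl) (Or.inl rfl)
        (by rw [k1, mul_one]) (by rw [k2, mul_one]) (by rw [cj_one, mul_one]) (by rw [cj_one, mul_one]))
    · exact hgen ea hea h1 (h.ker_eq he hea (Or.inl rfl) (Or.inr rfl) (by rw [k1, mul_one]) k2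
        (by rw [heaa, mul_one]) heab)
    · exact hgen eb heb h2 (h.ker_eq he heb (Or.inr rfl) (Or.inl rfl) k1 (by rw [k2, mul_one])
        heba (by rw [hebb, mul_one]))
    · have hzb : z0 * eb = eb * z0 := h.Eab _ h.zE _ heb
      exact hgen (ea * eb) (E.mul_mem hea heb) (by rw [cj_mul, h1, h2])
        (h.ker_eq he (E.mul_mem hea heb) (Or.inr rfl) (Or.inr rfl) k1 k2
        (by rw [cj_mul, heaa, heba]; group)
        (by rw [cj_mul, heab, hebb, mul_assoc, hzb]; group))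
  have hS0 : ∀ g, (∀ e ∈ E, cj e g = e ∨ cj e g = e * z0) →
      g ∈ C ∨ a * g ∈ C ∨ b * g ∈ C ∨ a * b * g ∈ C := by
    intro g hg
    have hzz : ∀ e : G, e * z0 * z0 = e := fun e => by rw [mul_assoc, h.zz, mul_one]
    rcases hg ea hea with k1 | k1 <;> rcases hg eb heb with k2 | k2
    · left; exact hmemC g k1 k2
    · right; left
      exact hmemC _ (by rw [← cj_cj, heaa, k1]) (by rw [← cj_cj, heba, cj_mul, k2, h.zc, hzz])
    · right; right; left
      exact hmemC _ (by rw [← cj_cj, heab, cj_mul, k1, h.zc, hzz]) (by rw [← cj_cj, hebb, k2])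
    · right; right; right
      exact hmemC _ (by rw [← cj_cj, ← cj_cj, heaa, heab, cj_mul, k1, h.zc, hzz])
        (by rw [← cj_cj, ← cj_cj, heba, cj_mul, hebb, h.zc, cj_mul, k2, h.zc, hzz])
  intro H _
  have hbb := hb_of hC8 hC8' hG H
  have hmemF : ∀ r x : G, x ∈ E → x * r = r * x → x ∈ E ⊓ centralizer ({r} : Set G) :=
    fun r x h1 h2 => ⟨h1, mem_centralizer_singleton_iff.2 h2⟩
  by_cases h1 : ∃ y ∈ H, a * y ∈ C
  · obtain ⟨y, hy, hy'⟩ := h1
    exact final hCab hbb hca (fun x hx hxr => hmemF _ _ (hFa x hx hxr) hxr) hy hy'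
  by_cases h4 : ∃ y ∈ H, b * y ∈ C
  · obtain ⟨y, hy, hy'⟩ := h4
    exact final hCab hbb hcb (fun x hx hxr => hmemF _ _ (hFb x hx hxr) hxr) hy hy'
  by_cases h5 : ∃ y ∈ H, a * b * y ∈ C
  · obtain ⟨y, hy, hy'⟩ := h5
    exact final hCab hbb hcab (fun x hx hxr => hmemF _ _ (hFab x hx hxr) hxr) hy hy'
  have hHS : ∀ x ∈ H, (∀ e ∈ E, cj e x = e ∨ cj e x = e * z0) → x ∈ C := by
    intro x hx hx'
    rcases hS0 x hx' with k | k | k | k
    · exact k
    · exact absurd ⟨x, hx, k⟩ h1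
    · exact absurd ⟨x, hx, k⟩ h4
    · exact absurd ⟨x, hx, k⟩ h5
  by_cases hHC : H ≤ C
  · have h6 := card_sub hHC
    have h7 : 0 < Nat.card (Sq H) := Nat.card_pos
    have e16 : (2 : ℕ) ^ 4 = 16 := by norm_num
    rw [e16]; omega
  obtain ⟨y, hy, hyC⟩ := SetLike.not_le_iff_exists.1 hHC
  -- `P`
  have hP : ∀ g, (cj e3 g = e3 ∨ cj e3 g = e3 * z0) → ∀ e ∈ E, cj e g = e ∨ cj e g = e * z0 := by
    intro g hg e he
    have k1 : cj (1 : G) g = 1 ∨ cj (1 : G) g = 1 * z0 := Or.inl (cj_one g)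
    have k2 : cj z0 g = z0 ∨ cj z0 g = z0 * z0 := Or.inl (h.zc g)
    have k3 := h2 g
    rcases hall e he with (e' | e' | e' | e') | (e' | e' | e' | e') <;> rw [e']
    · exact k1
    · exact k2
    · exact k3
    · exact h.mulz k3 k2
    · exact hg
    · exact h.mulz k2 hg
    · exact h.mulz k3 hg
    · exact h.mulz (h.mulz k3 k2) hg
  have hnP : ∀ g, ¬ (cj e3 g = e3 ∨ cj e3 g = e3 * z0) → ∃ s, (s = 1 ∨ s = z0) ∧
      cj e3 g = e3 * (e2 * s) := by
    intro g hg
    push Not at hg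
    rcases h3 g with k | k | k | k
    · exact absurd (by rw [cj_eq, k, mul_one]) hg.1
    · exact absurd (by rw [cj_eq, k]) hg.2
    · exact ⟨1, Or.inl rfl, by rw [cj_eq, k, mul_one]⟩
    · exact ⟨z0, Or.inr rfl, by rw [cj_eq, k]⟩
  refine last h.EC hC h16 hy hyC ?_
  intro x hx hxC
  have hny : ¬ (cj e3 y = e3 ∨ cj e3 y = e3 * z0) := fun e => hyC (hHS y hy (hP y e))
  have hnx : ¬ (cj e3 x = e3 ∨ cj e3 x = e3 * z0) := fun e => hxC (hHS x hx (hP x e))
  obtain ⟨s, hs, ks⟩ := hnP y hny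
  obtain ⟨u, hu, ku⟩ := hnP x hnx
  apply hHS _ (H.mul_mem hy hx)
  apply hP
  -- `cj e3 (y x) = e3 (e2 u) (cj e2 x) s`
  have hcs : cj s x = s := by
    rcases hs with rfl | rfl
    · exact cj_one x
    · exact h.zc x
  obtain ⟨v, hv, kv⟩ : ∃ v, (v = 1 ∨ v = z0) ∧ cj e2 x = e2 * v := by
    rcases h2 x with k | k
    · exact ⟨1, Or.inl rfl, by rw [k, mul_one]⟩
    · exact ⟨z0, Or.inr rfl, k⟩
  have hval : cj e3 (y * x) = e3 * (u * v * s) := by
    rw [← cj_cj, ks, cj_mul, cj_mul, ku, kv, hcs]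
    have huE := (h.oz hu).1
    calc e3 * (e2 * u) * (e2 * v * s) = e3 * (e2 * (u * e2)) * (v * s) := by group
      _ = e3 * (e2 * (e2 * u)) * (v * s) := by rw [h.Eab _ huE _ he2E]
      _ = e3 * (e2 * e2) * u * (v * s) := by group
      _ = _ := by rw [h.E2 _ he2E]; group
  rw [hval]
  rcases hu with rfl | rfl <;> rcases hv with rfl | rfl <;> rcases hs with rfl | rfl <;>
    simp [h.zz]

end K1h

end H87.SD1
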