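import Mathlib
import Cfsg.Prelude
import Cfsg.Agent.Lib.H87.Hr.SD2

set_option autoImplicit false
set_option maxHeartbeats 400000

/-! A self-centralizing `E8`: rank at most four. -/

namespace H87.SD3

open Subgroup H87.MW1 H87.MW2 H87.MW3 H87.MW4 H87.MW5 H87.MW7 H87.MW8 H87.SC1 H87.SC2 H87.SC3 H87.SC7
  H87.SC8 H87.SC9 H87.SD1

variable {G : Type*} [Group G]

theorem mulz {z e f g : G} (zc : ∀ g, cj z g = z) (zz : z * z = 1) (he : cj e g = e ∨ cj e g = e * z)
    (hf : cj f g = f ∨ cj f g = f * z) : cj (e * f) g = e * f ∨ cj (e * f) g = e * f * z := by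
  have hzf : z * f = f * z := by
    have := zc f
    unfold cj at this
    calc z * f = f * (f⁻¹ * z * f) := by group
      _ = _ := by rw [this]
  rw [cj_mul]
  rcases he with e1 | e1 <;> rcases hf with e2 | e2 <;> rw [e1, e2]
  · left; rfl
  · right; group
  · right
    calc e * z * f = e * (z * f) := by group
      _ = _ := by rw [hzf]; group
  · left
    calc e * z * (f * z) = e * (z * f) * z := by group
      _ = e * f * (z * z) := by rw [hzf]; group
      _ = _ := by rw [zz, mul_one]

/-- the centraliser of a normal four-group -/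
theorem idx_four [Finite G] {B : Subgroup G} [hBn : B.Normal] (hB4 : Nat.card B = 4)
    (hB2 : ∀ b ∈ B, b * b = 1) {z : G} (hz : z ∈ B) (hz1 : z ≠ 1) (zc : ∀ g, cj z g = z) :
    (Tt B).index ≤ 2 := by
  by_cases hT : Tt B = ⊤
  · rw [hT, index_top]; norm_num
  obtain ⟨g0, hg0⟩ : ∃ g0, g0 ∉ Tt B := by
    by_contra hcon
    push Not at hcon
    exact hT (eq_top_iff.2 fun x _ => hcon x)
  obtain ⟨c, hc, hcz⟩ : ∃ c ∈ B, c ∉ zpowers z := by
    by_contra hcon
    push Not at hcon
    have h1 := card_sub (show B ≤ zpowers z from hcon)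
    rw [hB4, Nat.card_zpowers] at h1
    have h2 : orderOf z ≤ 2 := orderOf_le_of_pow_eq_one (by norm_num) (by rw [pow_two]; exact hB2 z hz)
    omega
  have hc1 : c ≠ 1 := fun e => hcz (by rw [e]; exact one_mem _)
  have hcz' : c ≠ z := fun e => hcz (by rw [e]; exact mem_zpowers z)
  have h4 : ∀ x ∈ B, x = 1 ∨ x = c ∨ x = z ∨ x = c * z := by
    intro x hx
    have := four_elts (Q := B) (fun x => Subtype.ext (hB2 x x.2)) hB4.le (p := ⟨c, hc⟩)
      (q := ⟨z, hz⟩) (fun e => hc1 (congrArg Subtype.val e))
      (fun e => hz1 (congrArg Subtype.val e)) (fun e => hcz' (congrArg Subtype.val e)) ⟨x, hx⟩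
    rcases this with e | e | e | e
    · left; exact congrArg Subtype.val e
    · right; left; exact congrArg Subtype.val e
    · right; right; left; exact congrArg Subtype.val e
    · right; right; right; exact congrArg Subtype.val e
  have hmem : ∀ g, cj c g = c → g ∈ Tt B := by
    intro g hg
    rw [mem_centralizer_iff]
    intro x hx
    apply com_of_cj
    rcases h4 x hx with rfl | rfl | rfl | rfl
    · exact cj_one g
    · exact hg
    · exact zc g
    · rw [cj_mul, hg, zc]
  have hcj : ∀ g, g ∉ Tt B → cj c g = c * z := by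
    intro g hg
    have h5 : cj c g ∈ B := conj_mem' hc g
    have hback : ∀ w, cj c g = w → cj w g⁻¹ = c := by
      intro w hw
      rw [← hw, cj_cj, mul_inv_cancel]; unfold cj; group
    rcases h4 _ h5 with e | e | e | e
    · exact absurd ((hback 1 e).symm.trans (cj_one _)) hc1
    · exact absurd (hmem g e) hg
    · exact absurd ((hback z e).symm.trans (zc _)) hcz'
    · exact e
  refine idx_le ?_
  have h6 := card_le_two_mul (H := (⊤ : Subgroup G)) (K := Tt B) (y := g0) (by
    intro x _
    by_cases hx : x ∈ Tt B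
    · exact Or.inl hx
    · right
      apply hmem
      rw [← cj_cj, hcj g0 hg0, cj_mul, hcj x hx, zc, mul_assoc, hB2 z hz, mul_one])
  rwa [Nat.card_congr Subgroup.topEquiv.toEquiv] at h6

theorem main [Finite G] (hG : IsPGroup 2 G) (A : Subgroup G) (hAab : ∀ x ∈ A, ∀ y ∈ A, x * y = y * x)
    (hA2 : ∀ x ∈ A, x * x = 1) (hA8 : Nat.card A = 8)
    (hCA : ∀ x, (∀ y ∈ A, y * x = x * y) → x ∈ A) : RK 4 (⊤ : Subgroup G) := by
  classical
  by_cases hE0 : ∀ A' : Subgroup G, A'.Normal → IsMulCommutative A' → (∀ a ∈ A', a ^ 2 = 1) →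
      Nat.card A' ≤ 4
  · exact MW9.main hG hE0
  push Not at hE0
  obtain ⟨A', hA'n, hA'c, hA'2, hA'4⟩ := hE0
  obtain ⟨E, hEn, hEA', hE8, -⟩ := exists_normal_eight hG hA'n hA'4
  have hEab : ∀ x ∈ E, ∀ y ∈ E, x * y = y * x := by
    intro x hx y hy
    have := hA'c.is_comm.comm (⟨x, hEA' hx⟩ : A') ⟨y, hEA' hy⟩
    exact congrArg Subtype.val this
  have hE2 : ∀ x ∈ E, x * x = 1 := fun x hx => by rw [← pow_two]; exact hA'2 x (hEA' hx)
  obtain ⟨hC8, hC8'⟩ := FL hG hEn hEab hE2 hE8
  obtain ⟨z, e2, e3, hzE, he2E, he3E, hz1, he21, he2z, hzc, h2, h3, hall, -, -, -, -⟩ :=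
    flag hG hEn hEab hE2 hE8
  set C := centralizer (E : Set G) with hC
  haveI := hEn
  haveI hCn : C.Normal := by rw [hC]; infer_instance
  have hEC : E ≤ C := fun x hx => mem_centralizer_iff.2 fun y hy => hEab y hy x hx
  have hCE : ∀ x ∈ C, ∀ e ∈ E, e * x = x * e := fun x hx e he => mem_centralizer_iff.1 hx e he
  have hzA : z ∈ A := hCA z fun y _ => (com_of_cj (hzc y)).symm
  have hzz := hE2 z hzE
  by_cases hAC : A ≤ C
  · -- `A = E`
    have hEA : E ≤ A := fun e he => hCA e fun y hy => (hCE y (hAC hy) e he).symm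
    have hEe : E = A := Subgroup.eq_of_le_of_card_ge hEA (by omega)
    have hCe : C = E := by
      refine le_antisymm ?_ hEC
      intro x hx
      rw [hEe]
      exact hCA x fun y hy => hCE x hx y (by rw [hEe]; exact hy)
    intro H _
    have hC8 : Nat.card C = 8 := by rw [hCe]; exact hE8
    have hbb := hb_of (FL hG hEn hEab hE2 hE8).1 hC8' hG H
    by_cases hHC : H ≤ C
    · have h6 := card_sub hHC
      have h7 : 0 < Nat.card (Sq H) := Nat.card_pos
      have e16 : (2 : ℕ) ^ 4 = 16 := by norm_num
      rw [e16]; omega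
    refine add (K := H ⊓ C) inf_le_left (a := 2) (b := 2) ?_ hbb
    have e4 : (2 : ℕ) ^ 2 = 4 := by norm_num
    rw [e4]
    set K := H ⊓ C with hK
    have hKC : K ≤ C := inf_le_right
    by_cases hKc : K = C
    · · obtain ⟨y, hy, hyC⟩ := SetLike.not_le_iff_exists.1 hHC
        obtain ⟨e, he, hey⟩ : ∃ e ∈ E, e * y ≠ y * e := by
          by_contra hcon
          push Not at hcon
          exact hyC (mem_centralizer_iff.2 hcon)
        have h1 : cm e y ∈ K ⊓ Sq H := by
          have heK : e ∈ K := by rw [hKc]; exact hEC he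
          refine ⟨⟨?_, ?_⟩, comm_mem heK.1 hy⟩
          · unfold cm
            exact H.mul_mem (H.mul_mem (H.mul_mem (H.inv_mem heK.1) (H.inv_mem hy)) heK.1) hy
          · rw [cm_eq]; exact C.mul_mem (C.inv_mem heK.2) (conj_mem' heK.2 y)
        have h2 : K ⊓ Sq H ≠ ⊥ := by
          intro e'
          rw [e', mem_bot] at h1
          exact hey (comm_of_cm h1)
        have h3 : 1 < Nat.card ↥(K ⊓ Sq H) := (Subgroup.one_lt_card_iff_ne_bot _).2 h2
        rw [hKc] at h3 ⊢
        omega
    · have h1 := two_card_le (lt_of_le_of_ne hKC hKc)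
      have h2 : 0 < Nat.card ↥(K ⊓ Sq H) := Nat.card_pos
      omega
  obtain ⟨t, htA, htC⟩ := SetLike.not_le_iff_exists.1 hAC
  have hEA : ¬ E ≤ A := by
    intro e
    have : E = A := Subgroup.eq_of_le_of_card_ge e (by omega)
    exact hAC (by rw [← this]; exact hEC)
  set B := E ⊓ A with hB
  have hBE : B ≤ E := inf_le_left
  have hBA : B ≤ A := inf_le_right
  have hzB : z ∈ B := ⟨hzE, hzA⟩
  have hBlt : B < E := lt_of_le_of_ne hBE fun e => hEA (by rw [← e]; exact hBA)
  have hB4 := two_card_le hBlt
  rw [hE8] at hB4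
  -- the transvection property
  by_cases hB : Nat.card B = 4
  · -- case 2
    have htB : t ∉ B := fun e => htC (hEC (hBE e))
    have hAc : Nat.card A = Nat.card B * 2 := by rw [hA8, hB]
    have hta : Ta B t := {
      p := fun x => hG x
      B4 := hB
      B2 := fun b hb => hE2 b (hBE hb)
      tt := hA2 t htA
      tB := htB
      tc := fun b hb => hAab b (hBA hb) t htA
      cent := by
        intro x hx hxt
        have hdec : ∀ w ∈ A, w ∈ B ∨ t * w ∈ B := by
          intro w hw
          by_cases hwB : w ∈ B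
          · exact Or.inl hwB
          · exact Or.inr (two_step hBA hAc htA hw htB hwB)
        apply hdec
        apply hCA
        intro w hw
        rcases hdec w hw with e | e
        · exact hx w e
        · have h4 := hx _ e
          have h5 : t * (w * x) = t * (x * w) := by
            calc t * (w * x) = (t * w) * x := by group
              _ = x * (t * w) := h4
              _ = (x * t) * w := by group
              _ = _ := by rw [hxt]; group
          exact mul_left_cancel h5 }
    by_cases hBn : B.Normal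
    · exact hta.main2a (idx_four hB (fun b hb => hE2 b (hBE hb)) hzB hz1 hzc)
    · exact main2b hG hEn hEab hE2 hE8 hta hBE htC hBn
  · -- case 1
    have hB2 : Nat.card B ≤ 2 := by
      have h4 : Nat.card B ∣ 8 := by rw [← hE8]; exact Subgroup.card_dvd_of_le hBE
      have h5 : Nat.card B ≤ 4 := by omega
      have h6 : 0 < Nat.card B := Nat.card_pos
      interval_cases h : Nat.card B <;> omega
    obtain ⟨c, hcB, hc⟩ := exists_c hB2
    have hcz : z = c := (hc z hzB).resolve_left hz1
    subst hcz
    -- transvections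
    have htr : ∀ a ∈ A, cj e3 a = e3 ∨ cj e3 a = e3 * z := by
      by_contra hcon
      push Not at hcon
      obtain ⟨a, ha, ha1, ha2⟩ := hcon
      have hw : ∀ a ∈ A, cj e3 a ≠ e3 → cj e3 a ≠ e3 * z → cj e2 a = e2 ∧
          ∃ s, (s = 1 ∨ s = z) ∧ cj e3 a = e3 * (e2 * s) := by
        intro a ha h1 h4
        have : ∃ s, (s = 1 ∨ s = z) ∧ cj e3 a = e3 * (e2 * s) := by
          rcases h3 a with k | k | k | k
          · exact absurd (by rw [cj_eq, k, mul_one]) h1
          · exact absurd (by rw [cj_eq, k]) h4
          · exact ⟨1, Or.inl rfl, by rw [cj_eq, k, mul_one]⟩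
          · exact ⟨z, Or.inr rfl, by rw [cj_eq, k]⟩
        refine ⟨?_, this⟩
        obtain ⟨s, hs, k⟩ := this
        have hsc : ∀ g, cj s g = s := by
          intro g
          rcases hs with rfl | rfl
          · exact cj_one g
          · exact hzc g
        have hss : s * s = 1 := by
          rcases hs with rfl | rfl
          · exact one_mul 1
          · exact hzz
        have k2 : cj (cj e3 a) a = e3 := by rw [cj_cj, hA2 a ha]; unfold cj; group
        rw [k, cj_mul, cj_mul, k, hsc] at k2
        have k3 : (e2 * s) * (cj e2 a * s) = 1 := by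
          have : e3 * ((e2 * s) * (cj e2 a * s)) = e3 * 1 := by rw [mul_one, ← mul_assoc]; exact k2
          exact mul_left_cancel this
        have hse : s * cj e2 a = cj e2 a * s := (com_of_cj (hsc _))
        have k4 : e2 * cj e2 a = 1 := by
          calc e2 * cj e2 a = e2 * cj e2 a * (s * s) := by rw [hss, mul_one]
            _ = e2 * (cj e2 a * s) * s := by group
            _ = e2 * (s * cj e2 a) * s := by rw [hse]
            _ = (e2 * s) * (cj e2 a * s) := by group
            _ = 1 := k3
        calc cj e2 a = e2⁻¹ := (inv_eq_of_mul_eq_one_right k4).symm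
          _ = e2 := inv_eq_of_mul_eq_one_left (hE2 e2 he2E)
      obtain ⟨-, s, hs, ks⟩ := hw a ha ha1 ha2
      have hsc : ∀ g, cj s g = s := by
        intro g
        rcases hs with rfl | rfl
        · exact cj_one g
        · exact hzc g
      have he2A : e2 ∈ A := by
        apply hCA
        intro a' ha'
        have hfix : cj e2 a' = e2 := by
          by_cases k1 : cj e3 a' = e3
          · have k2 : cj (cj e3 a) a' = cj (cj e3 a') a := by rw [cj_cj, cj_cj, hAab a ha a' ha']
            rw [ks, cj_mul, cj_mul, k1, hsc, ks] at k2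
            exact mul_right_cancel (mul_left_cancel k2)
          by_cases k1' : cj e3 a' = e3 * z
          · have k2 : cj (cj e3 a) a' = cj (cj e3 a') a := by rw [cj_cj, cj_cj, hAab a ha a' ha']
            rw [ks, cj_mul, cj_mul, k1', hsc, cj_mul, ks, hzc] at k2
            have hzx : z * (cj e2 a' * s) = cj e2 a' * s * z := com_of_cj (hzc _)
            rw [mul_assoc, hzx, ← mul_assoc] at k2
            exact mul_right_cancel (mul_left_cancel (mul_right_cancel k2))
          · exact (hw a' ha' k1 k1').1
        exact (com_of_cj hfix).symm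
      rcases hc e2 ⟨he2E, he2A⟩ with k | k
      · exact he21 k
      · exact he2z k
    have hAz : ∀ a ∈ A, ∀ e ∈ E, cj e a = e ∨ cj e a = e * z := by
      intro g hgA e he
      have hg := htr g hgA
      have k1 : cj (1 : G) g = 1 ∨ cj (1 : G) g = 1 * z := Or.inl (cj_one g)
      have k2 : cj z g = z ∨ cj z g = z * z := Or.inl (hzc g)
      have k3 := h2 g
      rcases hall e he with (e' | e' | e' | e') | (e' | e' | e' | e') <;> rw [e']
      · exact k1
      · exact k2
      · exact k3
      · exact mulz hzc hzz k3 k2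
      · exact hg
      · exact mulz hzc hzz k2 hg
      · exact mulz hzc hzz k3 hg
      · exact mulz hzc hzz (mulz hzc hzz k3 k2) hg
    have hz2 : Nat.card (zpowers z) ≤ 2 := by
      rw [Nat.card_zpowers]
      exact orderOf_le_of_pow_eq_one (by norm_num) (by rw [pow_two]; exact hzz)
    have hAC2 : Nat.card ↥(A ⊓ C) ≤ 2 := by
      have h4 : Nat.card ↥(A ⊓ C) ∣ 8 := by rw [← hA8]; exact Subgroup.card_dvd_of_le inf_le_left
      by_contra hcon
      push Not at hcon
      have hlt : A ⊓ C < A := lt_of_le_of_ne inf_le_left fun e => hAC (inf_eq_left.1 e)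
      have h5 := two_card_le hlt
      rw [hA8] at h5
      have h6 : Nat.card ↥(A ⊓ C) = 4 := by
        have h7 : Nat.card ↥(A ⊓ C) ≤ 4 := by omega
        interval_cases h : Nat.card ↥(A ⊓ C) <;> omega
      have hAc : Nat.card A = Nat.card ↥(A ⊓ C) * 2 := by rw [hA8, h6]
      have h8 := card_le_cm (K := E) (h := t) (F := B) (S := zpowers z) hEab
        (fun x hx => conj_mem' hx _) (by
          intro x hx hxt
          refine ⟨hx, hCA x fun w hw => ?_⟩
          have htx := com_of_cj hxt
          by_cases hwC : w ∈ C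
          · exact (hCE w hwC x hx).symm
          · have h9 := two_step (inf_le_left : A ⊓ C ≤ A) hAc htA hw (fun e => htC e.2)
              (fun e => hwC e.2)
            have h10 := hCE _ h9.2 x hx
            have h11 : t * (w * x) = t * (x * w) := by
              calc t * (w * x) = (t * w) * x := by group
                _ = x * (t * w) := h10.symm
                _ = (x * t) * w := by group
                _ = _ := by rw [htx]; group
            exact mul_left_cancel h11) (by
          intro x hx
          rw [cm_eq]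
          rcases hAz t htA x hx with k | k
          · rw [k, inv_mul_cancel]; exact one_mem _
          · rw [k, inv_mul_cancel_left]; exact mem_zpowers z)
      rw [hE8] at h8
      have : Nat.card B * Nat.card (zpowers z) ≤ 2 * 2 := Nat.mul_le_mul hB2 hz2
      omega
    obtain ⟨c', -, hc'⟩ := exists_c hAC2
    have hcz : z = c' := (hc' z ⟨hzA, hEC hzE⟩).resolve_left hz1
    subst hcz
    -- choice of `a, b`
    have hoz : Nat.card (zpowers z) = 2 := by
      rw [Nat.card_zpowers]
      exact orderOf_eq_prime (by rw [pow_two]; exact hzz) hz1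
    haveI hzn : (zpowers z).Normal := ⟨by
      intro n hn g
      obtain ⟨i, rfl⟩ := mem_zpowers_iff.1 hn
      have h4 : z * g = g * z := com_of_cj (hzc g)
      have h5 : g * z ^ i * g⁻¹ = (g * z * g⁻¹) ^ i := by rw [conj_zpow]
      have h6 : g * z * g⁻¹ = z := by rw [← h4]; group
      rw [h5, h6]; exact hn⟩
    have hzle : zpowers z ≤ A := by rw [zpowers_le]; exact hzA
    obtain ⟨a, haA, haz⟩ : ∃ a ∈ A, a ∉ zpowers z := by
      refine SetLike.exists_of_lt (lt_of_le_of_ne hzle fun e => ?_)
      rw [e, hA8] at hoz; omega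
    have hR2A : zpowers a ⊔ zpowers z ≤ A := sup_le (by rw [zpowers_le]; exact haA) hzle
    have hR2 : Nat.card ↥(zpowers a ⊔ zpowers z) ≤ 4 := by
      have h4 := card_sup_D (H := zpowers a) (D := zpowers z)
      have h5 : Nat.card (zpowers a) ≤ 2 := by
        rw [Nat.card_zpowers]
        exact orderOf_le_of_pow_eq_one (by norm_num) (by rw [pow_two]; exact hA2 a haA)
      have h6 : 0 < Nat.card ↥(zpowers a ⊓ zpowers z) := Nat.card_pos
      rw [hoz] at h4
      have h7 : Nat.card ↥(zpowers a ⊔ zpowers z) * 1 ≤
          Nat.card ↥(zpowers a ⊔ zpowers z) * Nat.card ↥(zpowers a ⊓ zpowers z) :=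
        Nat.mul_le_mul_left _ h6
      omega
    obtain ⟨b, hbA, hbz⟩ : ∃ b ∈ A, b ∉ zpowers a ⊔ zpowers z := by
      refine SetLike.exists_of_lt (lt_of_le_of_ne hR2A fun e => ?_)
      rw [e, hA8] at hR2; omega
    have hgenA : zpowers b ⊔ (zpowers a ⊔ zpowers z) = A := by
      refine Subgroup.eq_of_le_of_card_ge (sup_le (by rw [zpowers_le]; exact hbA) hR2A) ?_
      have h4 : zpowers z < zpowers a ⊔ zpowers z := lt_of_le_of_ne le_sup_right fun e =>
        haz (by rw [e]; exact (le_sup_left : zpowers a ≤ _) (mem_zpowers a))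
      have h5 : zpowers a ⊔ zpowers z < zpowers b ⊔ (zpowers a ⊔ zpowers z) :=
        lt_of_le_of_ne le_sup_right fun e =>
        hbz (by rw [e]; exact (le_sup_left : zpowers b ≤ _) (mem_zpowers b))
      have h6 := two_card_le h4
      have h7 := two_card_le h5
      omega
    have hK : K1h E z a b := {
      En := hEn
      Eab := hEab
      E2 := hE2
      E8 := hE8
      zE := hzE
      z1 := hz1
      zc := hzc
      ha := hAz a haA
      hb := hAz b hbA
      haa := fun x => by rw [hA2 a haA]; unfold cj; group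
      hbb := fun x => by rw [hA2 b hbA]; unfold cj; group
      hab := fun x => by rw [hAab a haA b hbA]
      fix := by
        intro x hxC hxa hxb
        apply hc' x ⟨?_, hxC⟩
        apply hCA
        have hle : A ≤ centralizer ({x} : Set G) := by
          rw [← hgenA, sup_le_iff, sup_le_iff, zpowers_le, zpowers_le, zpowers_le]
          exact ⟨mem_centralizer_singleton_iff.2 hxb.symm, mem_centralizer_singleton_iff.2 hxa.symm,
            mem_centralizer_singleton_iff.2 (com_of_cj (hzc x))⟩
        intro w hw
        exact mem_centralizer_singleton_iff.1 (hle hw) }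
    exact hK.main hG

end H87.SD3
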