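import Mathlib
import Cfsg.Prelude
import Cfsg.Agent.Lib.H87.Hr.SD3

set_option autoImplicit false
set_option maxHeartbeats 400000

/-! `Q8 * Q8` with `C(Q) ≤ Q`: rank at most four. -/

namespace H87.SD4

open Subgroup H87.MW1 H87.MW2 H87.MW3 H87.MW4 H87.MW5 H87.MW7 H87.MW8 H87.SC1 H87.SC2 H87.SC3 H87.SC7
  H87.SC8 H87.SC9 H87.SD1 H87.SD3

variable {G : Type*} [Group G]

/-- transvections -/
theorem tr {E Q : Subgroup G} {z e2 e3 : G} (hE2 : ∀ x ∈ E, x * x = 1) (hzE : z ∈ E)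
    (he2E : e2 ∈ E) (he21 : e2 ≠ 1) (he2z : e2 ≠ z) (hzc : ∀ g, cj z g = z)
    (h2 : ∀ g, cj e2 g = e2 ∨ cj e2 g = e2 * z)
    (h3 : ∀ g, cm e3 g = 1 ∨ cm e3 g = z ∨ cm e3 g = e2 ∨ cm e3 g = e2 * z)
    (hall : ∀ x ∈ E, (x = 1 ∨ x = z ∨ x = e2 ∨ x = e2 * z) ∨
        (x = e3 ∨ x = z * e3 ∨ x = e2 * e3 ∨ x = e2 * z * e3))
    (hQ2 : ∀ q ∈ Q, ∀ x, cj x (q * q) = x)
    (hQc : ∀ q ∈ Q, ∀ r ∈ Q, ∀ x, cj x (q * r) = cj x (r * q))
    (hfix : ∀ x ∈ E, (∀ q ∈ Q, x * q = q * x) → x = 1 ∨ x = z) :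
    ∀ a ∈ Q, ∀ e ∈ E, cj e a = e ∨ cj e a = e * z := by
  have hzz := hE2 z hzE
  have htr : ∀ a ∈ Q, cj e3 a = e3 ∨ cj e3 a = e3 * z := by
    by_contra hcon
    push Not at hcon
    obtain ⟨a, ha, ha1, ha2⟩ := hcon
    have hw : ∀ a ∈ Q, cj e3 a ≠ e3 → cj e3 a ≠ e3 * z → cj e2 a = e2 ∧
        ∃ s, (s = 1 ∨ s = z) ∧ cj e3 a = e3 * (e2 * s) := by
      intro a ha h1 h4
      have : ∃ s, (s = 1 ∨ s = z) ∧ cj e3 a = e3 * (e2 * s) := by
        rcases h3 a with k | k | k | k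
        · exact absurd (by rw [cj_eq, k, mul_one]) h1
        · exact absurd (by rw [cj_eq, k]) h4
        · exact ⟨1, Or.inl rfl, by rw [cj_eq, k, mul_one]⟩
        · exact ⟨z, Or.inr rfl, by rw [cj_eq, k]⟩
      refine ⟨?_, this⟩
      obtain ⟨s, hs, k⟩ := this
      have hsc : ∀ g, cj s g = s := by
        intro g
        rcases hs with rfl | rfl
        · exact cj_one g
        · exact hzc g
      have hss : s * s = 1 := by
        rcases hs with rfl | rfl
        · exact one_mul 1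
        · exact hzz
      have k2 : cj (cj e3 a) a = e3 := by rw [cj_cj, hQ2 a ha]
      rw [k, cj_mul, cj_mul, k, hsc] at k2
      have k3 : (e2 * s) * (cj e2 a * s) = 1 := by
        have : e3 * ((e2 * s) * (cj e2 a * s)) = e3 * 1 := by rw [mul_one, ← mul_assoc]; exact k2
        exact mul_left_cancel this
      have hse : s * cj e2 a = cj e2 a * s := (com_of_cj (hsc _))
      have k4 : e2 * cj e2 a = 1 := by
        calc e2 * cj e2 a = e2 * cj e2 a * (s * s) := by rw [hss, mul_one]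
          _ = e2 * (cj e2 a * s) * s := by group
          _ = e2 * (s * cj e2 a) * s := by rw [hse]
          _ = (e2 * s) * (cj e2 a * s) := by group
          _ = 1 := k3
      calc cj e2 a = e2⁻¹ := (inv_eq_of_mul_eq_one_right k4).symm
        _ = e2 := inv_eq_of_mul_eq_one_left (hE2 e2 he2E)
    obtain ⟨-, s, hs, ks⟩ := hw a ha ha1 ha2
    have hsc : ∀ g, cj s g = s := by
      intro g
      rcases hs with rfl | rfl
      · exact cj_one g
      · exact hzc g
    have he2A : e2 = 1 ∨ e2 = z := by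
      apply hfix e2 he2E
      intro a' ha'
      have hfix : cj e2 a' = e2 := by
        by_cases k1 : cj e3 a' = e3
        · have k2 : cj (cj e3 a) a' = cj (cj e3 a') a := by rw [cj_cj, cj_cj, hQc a ha a' ha']
          rw [ks, cj_mul, cj_mul, k1, hsc, ks] at k2
          exact mul_right_cancel (mul_left_cancel k2)
        by_cases k1' : cj e3 a' = e3 * z
        · have k2 : cj (cj e3 a) a' = cj (cj e3 a') a := by rw [cj_cj, cj_cj, hQc a ha a' ha']
          rw [ks, cj_mul, cj_mul, k1', hsc, cj_mul, ks, hzc] at k2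
          have hzx : z * (cj e2 a' * s) = cj e2 a' * s * z := com_of_cj (hzc _)
          rw [mul_assoc, hzx, ← mul_assoc] at k2
          exact mul_right_cancel (mul_left_cancel (mul_right_cancel k2))
        · exact (hw a' ha' k1 k1').1
      exact com_of_cj hfix
    rcases he2A with k | k
    · exact he21 k
    · exact he2z k
  intro g hgA e he
  have hg := htr g hgA
  have k1 : cj (1 : G) g = 1 ∨ cj (1 : G) g = 1 * z := Or.inl (cj_one g)
  have k2 : cj z g = z ∨ cj z g = z * z := Or.inl (hzc g)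
  have k3 := h2 g
  rcases hall e he with (e' | e' | e' | e') | (e' | e' | e' | e') <;> rw [e']
  · exact k1
  · exact k2
  · exact k3
  · exact mulz hzc hzz k3 k2
  · exact hg
  · exact mulz hzc hzz k2 hg
  · exact mulz hzc hzz k3 hg
  · exact mulz hzc hzz (mulz hzc hzz k3 k2) hg

/-- abstract form -/
theorem main [Finite G] (hG : IsPGroup 2 G) (Q : Subgroup G) {z i1 j1 i2 j2 : G} (hQ32 : Nat.card Q = 32)
    (hz1 : z ≠ 1) (hzz : z * z = 1) (hzQ : ∀ q ∈ Q, z * q = q * z)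
    (hsq : ∀ q ∈ Q, q * q = 1 ∨ q * q = z)
    (hcen : ∀ x, (∀ q ∈ Q, q * x = x * q) → x = 1 ∨ x = z)
    (hi1 : i1 ∈ Q) (hj1 : j1 ∈ Q) (hi2 : i2 ∈ Q) (hj2 : j2 ∈ Q)
    (hgen : ∀ x, i1 * x = x * i1 → j1 * x = x * j1 → i2 * x = x * i2 → j2 * x = x * j2 →
      ∀ q ∈ Q, q * x = x * q) : RK 4 (⊤ : Subgroup G) := by
  classical
  by_cases hE0 : ∀ A' : Subgroup G, A'.Normal → IsMulCommutative A' → (∀ a ∈ A', a ^ 2 = 1) →
      Nat.card A' ≤ 4
  · exact MW9.main hG hE0
  push Not at hE0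
  obtain ⟨A', hA'n, hA'c, hA'2, hA'4⟩ := hE0
  obtain ⟨E, hEn, hEA', hE8, -⟩ := exists_normal_eight hG hA'n hA'4
  have hEab : ∀ x ∈ E, ∀ y ∈ E, x * y = y * x := by
    intro x hx y hy
    have := hA'c.is_comm.comm (⟨x, hEA' hx⟩ : A') ⟨y, hEA' hy⟩
    exact congrArg Subtype.val this
  have hE2 : ∀ x ∈ E, x * x = 1 := fun x hx => by rw [← pow_two]; exact hA'2 x (hEA' hx)
  obtain ⟨z0, e2, e3, hzE, he2E, he3E, hz01, he21, he2z, hzc, h2, h3, hall, -, -, -, -⟩ :=
    flag hG hEn hEab hE2 hE8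
  haveI := hEn
  have hz0 : z0 = z := (hcen z0 fun q _ => (com_of_cj (hzc q)).symm).resolve_left hz01
  subst hz0
  have hcz : ∀ s, (s = 1 ∨ s = z0) → ∀ g, cj s g = s := by
    intro s hs g
    rcases hs with rfl | rfl
    · exact cj_one g
    · exact hzc g
  have hcz' : ∀ s, (s = 1 ∨ s = z0) → ∀ g, cj g s = g := by
    intro s hs g
    apply cj_of_com
    exact (com_of_cj (hcz s hs g)).symm
  have hQ2 : ∀ q ∈ Q, ∀ x, cj x (q * q) = x := fun q hq x => hcz' _ (hsq q hq) x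
  have hmz : ∀ s t, (s = 1 ∨ s = z0) → (t = 1 ∨ t = z0) → (s * t = 1 ∨ s * t = z0) := by
    rintro s t (rfl | rfl) (rfl | rfl)
    · left; simp
    · right; simp
    · right; simp
    · left; exact hzz
  have hiz : ∀ s, (s = 1 ∨ s = z0) → (s⁻¹ = 1 ∨ s⁻¹ = z0) := by
    rintro s (rfl | rfl)
    · left; simp
    · right; exact inv_eq_of_mul_eq_one_left hzz
  have hcm : ∀ q ∈ Q, ∀ r ∈ Q, cm q r = 1 ∨ cm q r = z0 := by
    intro q hq r hr
    have : cm q r = (q⁻¹ * q⁻¹) * ((q * r⁻¹) * (q * r⁻¹)) * (r * r) := by unfold cm; group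
    rw [this]
    exact hmz _ _ (hmz _ _ (hsq _ (Q.inv_mem hq)) (hsq _ (Q.mul_mem hq (Q.inv_mem hr)))) (hsq r hr)
  have hQc : ∀ q ∈ Q, ∀ r ∈ Q, ∀ x, cj x (q * r) = cj x (r * q) := by
    intro q hq r hr x
    have : q * r = r * q * cm q r := by unfold cm; group
    rw [this, ← cj_cj, hcz' _ (hcm q hq r hr)]
  have htr := tr hE2 hzE he2E he21 he2z hzc h2 h3 hall hQ2 hQc
    (fun x _ hx => hcen x fun q hq => (hx q hq).symm)
  have hz2 : Nat.card (zpowers z0) ≤ 2 := by
    rw [Nat.card_zpowers]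
    exact orderOf_le_of_pow_eq_one (by norm_num) (by rw [pow_two]; exact hzz)
  -- `E ≤ Q`
  have hEQ : E ≤ Q := by
    have hM : ∀ x ∈ Q ⊔ E, ∀ r ∈ Q, cm r x = 1 ∨ cm r x = z0 := by
      intro x hx r hr
      obtain ⟨q, hq, e, he, rfl⟩ := Subgroup.mem_sup_of_normal_right.1 hx
      have k1 : cj r q = r * cm r q := cj_eq r q
      have k2 : cm r e = 1 ∨ cm r e = z0 := by
        have : cm r e = (cm e r)⁻¹ := by unfold cm; group
        rw [this]
        apply hiz
        rcases htr r hr e he with k | k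
        · left; rw [cm_eq, k]; group
        · right; rw [cm_eq, k]; group
      have k3 : cm r (q * e) = cm r e * cm r q := by
        rw [cm_eq, ← cj_cj, k1, cj_mul, hcz _ (hcm r hr q hq), cj_eq r e]; group
      rw [k3]; exact hmz _ _ k2 (hcm r hr q hq)
    set S : Finset G := {1, z0} with hS
    have hSc : S.card ≤ 2 := Finset.card_le_two
    have hSm : ∀ u, (u = 1 ∨ u = z0) → u ∈ S := by
      intro u hu; rw [hS]; simpa using hu
    have hcomm : ∀ x ∈ Q ⊔ E, ∀ y ∈ Q ⊔ E, ∀ r ∈ Q, cm r x = cm r y → r * (x⁻¹ * y) = (x⁻¹ * y) * r := by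
      intro x hx y hy r hr e
      apply com_of_cj
      have hs := hM x hx r hr
      have k1 : cj r x = r * cm r x := cj_eq r x
      have k2 : cj r y = r * cm r x := by rw [cj_eq, ← e]
      have k3 : cj r x⁻¹ = r * (cm r x)⁻¹ := by
        have k4 : cj (cj r x) x⁻¹ = r := by rw [cj_cj, mul_inv_cancel]; unfold cj; group
        rw [k1, cj_mul, hcz _ hs] at k4
        calc cj r x⁻¹ = cj r x⁻¹ * cm r x * (cm r x)⁻¹ := by group
          _ = _ := by rw [k4]
      rw [← cj_cj, k3, cj_mul, k2, hcz _ (hiz _ hs)]; group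
    have h1 := card_le_fiber (H := Q ⊔ E) (K := zpowers z0)
      (fun x : G => ((cm i1 x, cm j1 x), (cm i2 x, cm j2 x))) ((S ×ˢ S) ×ˢ (S ×ˢ S)) (by
        intro x hx
        simp only [Finset.mem_product]
        exact ⟨⟨hSm _ (hM x hx _ hi1), hSm _ (hM x hx _ hj1)⟩,
          ⟨hSm _ (hM x hx _ hi2), hSm _ (hM x hx _ hj2)⟩⟩) (by
        intro x hx y hy e
        have e' : ((cm i1 x, cm j1 x), (cm i2 x, cm j2 x)) =
          ((cm i1 y, cm j1 y), (cm i2 y, cm j2 y)) := e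
        simp only [Prod.mk.injEq] at e'
        obtain ⟨⟨k1, k2⟩, k3, k4⟩ := e'
        rcases hcen (x⁻¹ * y) (hgen _ (hcomm x hx y hy _ hi1 k1) (hcomm x hx y hy _ hj1 k2)
          (hcomm x hx y hy _ hi2 k3) (hcomm x hx y hy _ hj2 k4)) with k | k
        · rw [k]; exact one_mem _
        · rw [k]; exact mem_zpowers z0)
    rw [Finset.card_product, Finset.card_product] at h1
    have h4 : S.card * S.card ≤ 2 * 2 := Nat.mul_le_mul hSc hSc
    have h5 : S.card * S.card * (S.card * S.card) ≤ (2 * 2) * (2 * 2) := Nat.mul_le_mul h4 h4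
    have h6 : S.card * S.card * (S.card * S.card) * Nat.card (zpowers z0) ≤ (2 * 2) * (2 * 2) * 2 :=
      Nat.mul_le_mul h5 hz2
    have h7 : Q = Q ⊔ E := Subgroup.eq_of_le_of_card_ge le_sup_left (by rw [hQ32]; omega)
    rw [h7]; exact le_sup_right
  -- choice of `a, b`
  obtain ⟨a, haQ, haE⟩ : ∃ a ∈ Q, a ∉ E := by
    refine SetLike.exists_of_lt (lt_of_le_of_ne hEQ fun e => ?_)
    rw [e, hQ32] at hE8; omega
  have haaE : a * a ∈ E := by
    rcases hsq a haQ with k | k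
    · rw [k]; exact E.one_mem
    · rw [k]; exact hzE
  have hR2A : zpowers a ⊔ E ≤ Q := sup_le (by rw [zpowers_le]; exact haQ) hEQ
  have hR2 : Nat.card ↥(zpowers a ⊔ E) ≤ 16 := by
    have h4 := card_le_two_mul (H := zpowers a ⊔ E) (K := E) (y := a) (by
      intro x hx
      obtain ⟨y, hy, d, hd, rfl⟩ := Subgroup.mem_sup_of_normal_right.1 hx
      obtain ⟨i, rfl⟩ := mem_zpowers_iff.1 hy
      rcases Int.even_or_odd' i with ⟨j, rfl | rfl⟩
      · left
        rw [zpow_mul]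
        refine E.mul_mem (E.zpow_mem ?_ _) hd
        rw [zpow_ofNat, pow_two]; exact haaE
      · right
        have h5 : a * (a ^ (2 * j + 1) * d) = (a ^ (2 : ℤ)) ^ (j + 1) * d := by
          rw [← zpow_mul, ← mul_assoc, ← zpow_one_add]; congr 2; ring
        rw [h5]
        refine E.mul_mem (E.zpow_mem ?_ _) hd
        rw [zpow_ofNat, pow_two]; exact haaE)
    rw [hE8] at h4; omega
  obtain ⟨b, hbQ, hbz⟩ : ∃ b ∈ Q, b ∉ zpowers a ⊔ E := by
    refine SetLike.exists_of_lt (lt_of_le_of_ne hR2A fun e => ?_)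
    rw [e, hQ32] at hR2; omega
  have hgenQ : zpowers b ⊔ (zpowers a ⊔ E) = Q := by
    refine Subgroup.eq_of_le_of_card_ge (sup_le (by rw [zpowers_le]; exact hbQ) hR2A) ?_
    have h4 : E < zpowers a ⊔ E := lt_of_le_of_ne le_sup_right fun e =>
      haE (by rw [e]; exact (le_sup_left : zpowers a ≤ _) (mem_zpowers a))
    have h5 : zpowers a ⊔ E < zpowers b ⊔ (zpowers a ⊔ E) :=
      lt_of_le_of_ne le_sup_right fun e =>
      hbz (by rw [e]; exact (le_sup_left : zpowers b ≤ _) (mem_zpowers b))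
    have h6 := two_card_le h4
    have h7 := two_card_le h5
    omega
  have hK : K1h E z0 a b := {
    En := hEn
    Eab := hEab
    E2 := hE2
    E8 := hE8
    zE := hzE
    z1 := hz1
    zc := hzc
    ha := htr a haQ
    hb := htr b hbQ
    haa := hQ2 a haQ
    hbb := hQ2 b hbQ
    hab := hQc a haQ b hbQ
    fix := by
      intro x hxC hxa hxb
      apply hcen x
      have hle : Q ≤ centralizer ({x} : Set G) := by
        rw [← hgenQ, sup_le_iff, sup_le_iff, zpowers_le, zpowers_le]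
        exact ⟨mem_centralizer_singleton_iff.2 hxb.symm, mem_centralizer_singleton_iff.2 hxa.symm,
          fun e he => mem_centralizer_singleton_iff.2 (mem_centralizer_iff.1 hxC e he)⟩
      intro w hw
      exact mem_centralizer_singleton_iff.1 (hle hw) }
  exact hK.main hG

end H87.SD4
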