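import Mathlib
import Cfsg.Prelude
import Cfsg.Agent.Lib.H87.Hr.SD4

set_option autoImplicit false
set_option maxHeartbeats 400000

/-! `Q8 * Q8` with `C(Q) ≤ Q`: rank at most four. -/

namespace H87.SD5

open Subgroup H87.MW1 H87.MW2

theorem q8sq : ∀ g : QuaternionGroup 2, g * g = 1 ∨ g * g = .a 2 := by decide

theorem q8cen : ∀ g : QuaternionGroup 2, (∀ h, g * h = h * g) → g = 1 ∨ g = .a 2 := by decide

theorem q8gen : ∀ g : QuaternionGroup 2, ∃ m : Fin 2, ∃ n : Fin 4,
    g = (.xa 0) ^ (m : ℕ) * (.a 1) ^ (n : ℕ) := by decide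

theorem q8u : (QuaternionGroup.a 2 : QuaternionGroup 2) ≠ 1 := by decide

theorem q8uu : (QuaternionGroup.a 2 : QuaternionGroup 2) * .a 2 = 1 := by decide

variable {G : Type*} [Group G]

theorem facts (Q : Subgroup G) (e : Q ≃* QuaternionGroup 2) : ∃ i j u : G, i ∈ Q ∧ j ∈ Q ∧ u ∈ Q ∧
    u ≠ 1 ∧ u * u = 1 ∧ (∀ q ∈ Q, q * q = 1 ∨ q * q = u) ∧
    (∀ q ∈ Q, (∀ r ∈ Q, q * r = r * q) → q = 1 ∨ q = u) ∧
    (∀ x, i * x = x * i → j * x = x * j → ∀ q ∈ Q, q * x = x * q) ∧ Nat.card Q = 8 := by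
  refine ⟨e.symm (.a 1), e.symm (.xa 0), e.symm (.a 2), SetLike.coe_mem _, SetLike.coe_mem _,
    SetLike.coe_mem _, ?_, ?_, ?_, ?_, ?_, ?_⟩
  · intro h
    have h1 : e.symm (.a 2) = 1 := Subtype.ext h
    rw [map_eq_one_iff _ e.symm.injective] at h1
    exact q8u h1
  · have h1 : e.symm (.a 2) * e.symm (.a 2) = 1 := by rw [← map_mul, q8uu, map_one]
    exact congrArg Subtype.val h1
  · intro q hq
    rcases q8sq (e ⟨q, hq⟩) with h | h
    · left
      rw [← map_mul, map_eq_one_iff _ e.injective] at h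
      exact congrArg Subtype.val h
    · right
      rw [← map_mul] at h
      have h1 : (⟨q, hq⟩ : Q) * ⟨q, hq⟩ = e.symm (.a 2) := by rw [← h]; simp
      exact congrArg Subtype.val h1
  · intro q hq hr
    rcases q8cen (e ⟨q, hq⟩) (by
      intro h
      have h1 := hr (e.symm h) (SetLike.coe_mem _)
      have h2 : (⟨q, hq⟩ : Q) * e.symm h = e.symm h * ⟨q, hq⟩ := Subtype.ext h1
      have h3 := congrArg e h2
      simpa using h3) with h | h
    · left
      rw [map_eq_one_iff _ e.injective] at h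
      exact congrArg Subtype.val h
    · right
      have h1 : (⟨q, hq⟩ : Q) = e.symm (.a 2) := by rw [← h]; simp
      exact congrArg Subtype.val h1
  · intro x hi hj q hq
    obtain ⟨m, n, h⟩ := q8gen (e ⟨q, hq⟩)
    have h1 : (⟨q, hq⟩ : Q) = (e.symm (.xa 0)) ^ (m : ℕ) * (e.symm (.a 1)) ^ (n : ℕ) := by
      rw [← map_pow, ← map_pow, ← map_mul, ← h]; simp
    have h2 : q = (e.symm (.xa 0) : G) ^ (m : ℕ) * (e.symm (.a 1) : G) ^ (n : ℕ) := by
      have := congrArg Subtype.val h1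
      simpa using this
    rw [h2]
    have k1 : Commute (e.symm (.xa 0) : G) x := hj
    have k2 : Commute (e.symm (.a 1) : G) x := hi
    exact ((k1.pow_left _).mul_left (k2.pow_left _))
  · rw [Nat.card_congr e.toEquiv, Nat.card_eq_fintype_card, QuaternionGroup.card]

theorem main [Finite G] (hS : IsPGroup 2 G) (Q Q₁ Q₂ : Subgroup G) (e₁ : Q₁ ≃* QuaternionGroup 2)
    (e₂ : Q₂ ≃* QuaternionGroup 2) (hcomm : ∀ a ∈ Q₁, ∀ b ∈ Q₂, a * b = b * a) (hQ : Q₁ ⊔ Q₂ = Q)
    (hQ32 : Nat.card Q = 32) (hC : Subgroup.centralizer (Q : Set G) ≤ Q) : RK 4 (⊤ : Subgroup G) := by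
  classical
  obtain ⟨i1, j1, u1, hi1, hj1, hu1, hu11, huu1, hsq1, hcen1, hgen1, hc1⟩ := facts Q₁ e₁
  obtain ⟨i2, j2, u2, hi2, hj2, hu2, hu21, huu2, hsq2, hcen2, hgen2, hc2⟩ := facts Q₂ e₂
  have hQ1 : Q₁ ≤ Q := by rw [← hQ]; exact le_sup_left
  have hQ2 : Q₂ ≤ Q := by rw [← hQ]; exact le_sup_right
  have hnorm : Q₁ ≤ normalizer (Q₂ : Set G) := by
    intro x hx
    rw [mem_normalizer_iff]
    intro y
    constructor
    · intro hy
      rw [hcomm x hx y hy]; simpa using hy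
    · intro hy
      have h1 := hcomm x hx _ hy
      have h2 : y = x⁻¹ * (x * y * x⁻¹) * x := by group
      have h3 : x⁻¹ * (x * y * x⁻¹) * x = x * y * x⁻¹ := by
        rw [mul_assoc, ← h1]; group
      rw [h3] at h2
      rw [h2]; exact hy
  have hcs := H3.CardSup.card_sup_mul_card_inf Q₁ Q₂ hnorm
  rw [hQ, hQ32, hc1, hc2] at hcs
  have hinf : Nat.card ↥(Q₁ ⊓ Q₂) = 2 := by omega
  have hu : u1 = u2 := by
    have hne : Q₁ ⊓ Q₂ ≠ ⊥ := (Subgroup.one_lt_card_iff_ne_bot _).1 (by omega)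
    obtain ⟨w, hw, hw1⟩ : ∃ w ∈ Q₁ ⊓ Q₂, w ≠ 1 := by
      by_contra hcon
      push Not at hcon
      exact hne (eq_bot_iff.2 fun x hx => mem_bot.2 (hcon x hx))
    have h1 := (hcen1 w hw.1 fun r hr => (hcomm r hr w hw.2).symm).resolve_left hw1
    have h2 := (hcen2 w hw.2 fun r hr => hcomm w hw.1 r hr).resolve_left hw1
    rw [← h1, h2]
  subst hu
  have hdec : ∀ q ∈ Q, ∃ a ∈ Q₁, ∃ b ∈ Q₂, q = a * b := by
    intro q hq
    have h1 : (q : G) ∈ ((Q₁ ⊔ Q₂ : Subgroup G) : Set G) := by rw [hQ]; exact hq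
    rw [Subgroup.coe_mul_of_left_le_normalizer_right Q₁ Q₂ hnorm] at h1
    obtain ⟨a, ha, b, hb, e⟩ := Set.mem_mul.1 h1
    exact ⟨a, ha, b, hb, e.symm⟩
  have hsq : ∀ q ∈ Q, q * q = 1 ∨ q * q = u1 := by
    intro q hq
    obtain ⟨a, ha, b, hb, rfl⟩ := hdec q hq
    have h1 : a * b * (a * b) = (a * a) * (b * b) := by
      calc a * b * (a * b) = a * (b * a) * b := by group
        _ = a * (a * b) * b := by rw [hcomm a ha b hb]
        _ = _ := by group
    rw [h1]
    rcases hsq1 a ha with k1 | k1 <;> rcases hsq2 b hb with k2 | k2 <;> rw [k1, k2]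
    · left; simp
    · right; simp
    · right; simp
    · left; exact huu1
  refine H87.SD4.main hS Q (z := u1) (i1 := i1) (j1 := j1) (i2 := i2) (j2 := j2) hQ32 hu11 huu1 ?_ hsq
    ?_ (hQ1 hi1) (hQ1 hj1) (hQ2 hi2) (hQ2 hj2) ?_
  · intro q hq
    obtain ⟨a, ha, b, hb, rfl⟩ := hdec q hq
    have h1 : u1 * b = b * u1 := hcomm u1 hu1 b hb
    have h2 : a * u1 = u1 * a := hcomm a ha u1 hu2
    calc u1 * (a * b) = (u1 * a) * b := by group
      _ = a * (u1 * b) := by rw [← h2]; group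
      _ = _ := by rw [h1]; group
  · intro x hx
    have hxQ : x ∈ Q := hC (mem_centralizer_iff.2 hx)
    obtain ⟨a, ha, b, hb, rfl⟩ := hdec x hxQ
    have ha' : a = 1 ∨ a = u1 := by
      apply hcen1 a ha
      intro r hr
      have h1 := hx r (hQ1 hr)
      have h2 := hcomm r hr b hb
      have h3 : r * a * b = a * r * b := by
        calc r * a * b = r * (a * b) := by group
          _ = a * b * r := h1
          _ = a * (b * r) := by group
          _ = _ := by rw [← h2]; group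
      exact (mul_right_cancel h3).symm
    have hb' : b = 1 ∨ b = u1 := by
      apply hcen2 b hb
      intro r hr
      have h1 := hx r (hQ2 hr)
      have h2 := hcomm a ha r hr
      have h3 : a * (r * b) = a * (b * r) := by
        calc a * (r * b) = (a * r) * b := by group
          _ = r * (a * b) := by rw [h2]; group
          _ = a * b * r := h1
          _ = _ := by group
      exact (mul_left_cancel h3).symm
    rcases ha' with k1 | k1 <;> rcases hb' with k2 | k2 <;> rw [k1, k2]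
    · left; simp
    · right; simp
    · right; simp
    · left; exact huu1
  · intro x k1 k2 k3 k4 q hq
    obtain ⟨a, ha, b, hb, rfl⟩ := hdec q hq
    have h1 := hgen1 x k1 k2 a ha
    have h2 := hgen2 x k3 k4 b hb
    calc a * b * x = a * (b * x) := by group
      _ = (a * x) * b := by rw [h2]; group
      _ = _ := by rw [h1]; group

end H87.SD5
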